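import Cfsg.Agent.H5.T3.Dim3

/-! Block structure in dimension nine. -/

set_option autoImplicit false
set_option linter.unusedSimpArgs false
set_option linter.unusedSectionVars false
set_option linter.unusedVariables false

namespace Cfsg.Agent.H5.T3

open Matrix Cfsg.Agent.H9.Sp Cfsg.Agent.H7
open scoped Kronecker

variable {F : Type*} [Field F]

/-- permutation matrices -/
def pm (F : Type*) [Field F] {ι : Type} [Fintype ι] [DecidableEq ι] (e : ι ≃ ι) : GL ι F :=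
  ⟨e.toPEquiv.toMatrix, e.symm.toPEquiv.toMatrix,
    by simp [← PEquiv.toMatrix_trans, ← Equiv.toPEquiv_trans],
    by simp [← PEquiv.toMatrix_trans, ← Equiv.toPEquiv_trans]⟩

theorem pm_apply {ι : Type} [Fintype ι] [DecidableEq ι] (e : ι ≃ ι) (i j : ι) :
    (pm F e : Matrix ι ι F) i j = if e i = j then 1 else 0 := by
  simp [pm, PEquiv.toMatrix_apply]

theorem cj_pm {ι : Type} [Fintype ι] [DecidableEq ι] (e : ι ≃ ι) (X : Matrix ι ι F) :
    cj (pm F e) X = X.submatrix e e := by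
  rw [cj_apply]
  change e.toPEquiv.toMatrix * X * e.symm.toPEquiv.toMatrix = _
  rw [PEquiv.toMatrix_toPEquiv_mul, PEquiv.mul_toMatrix_toPEquiv]; rfl

/-- tensor product of invertible matrices -/
abbrev kr (g k : GL Z3 F) : GL W3 F := GeneralLinearGroup.kronecker g k

theorem kr_val (g k : GL Z3 F) : (kr g k : Matrix W3 W3 F) = (g : Matrix Z3 Z3 F) ⊗ₖ (k : Matrix Z3 Z3 F) := rfl

theorem cj_kr (g k : GL Z3 F) (A B : Matrix Z3 Z3 F) : cj (kr g k) (A ⊗ₖ B) = cj g A ⊗ₖ cj k B := by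
  simp only [cj_apply, mul_kronecker_mul]; rfl

/-- block diagonal matrices -/
def bd : (Z3 → GL Z3 F) →* GL W3 F :=
  (Units.map (blockDiagonalRingHom Z3 Z3 F : _ →* _)).comp MulEquiv.piUnits.symm.toMonoidHom

theorem bd_val (f : Z3 → GL Z3 F) :
    (bd f : Matrix W3 W3 F) = blockDiagonal fun j => (f j : Matrix Z3 Z3 F) := rfl

theorem bd_const (g : GL Z3 F) : bd (fun _ => g) = kr g 1 := Units.ext (by
  ext ⟨i, P⟩ ⟨j, Q⟩; simp [bd_val, kr_val, blockDiagonal_apply, one_apply])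

theorem kr_pm (τ : Z3 ≃ Z3) : kr 1 (pm F τ) = pm F ((Equiv.refl Z3).prodCongr τ) := Units.ext (by
  ext ⟨i, P⟩ ⟨j, Q⟩; simp [kr_val, pm_apply, one_apply, ite_and]; grind)

theorem bd_perm (τ : Z3 ≃ Z3) (f : Z3 → GL Z3 F) :
    kr 1 (pm F τ) * bd f * (kr 1 (pm F τ))⁻¹ = bd fun j => f (τ j) := Units.ext (by
  rw [← cj_val, kr_pm, cj_pm]
  ext ⟨i, P⟩ ⟨j, Q⟩; simp [bd_val, blockDiagonal_apply])

theorem bd_mul_kr (f : Z3 → Matrix Z3 Z3 F) (A B : Matrix Z3 Z3 F) (i P j Q : Z3) :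
    (blockDiagonal f * A ⊗ₖ B) (i, P) (j, Q) = (f P * A) i j * B P Q := by
  simp [mul_apply, Fintype.sum_prod_type, blockDiagonal_apply, Finset.sum_mul, mul_assoc]

theorem kr_mul_bd (f : Z3 → Matrix Z3 Z3 F) (A B : Matrix Z3 Z3 F) (i P j Q : Z3) :
    (A ⊗ₖ B * blockDiagonal f) (i, P) (j, Q) = (A * f Q) i j * B P Q := by
  simp [mul_apply, Fintype.sum_prod_type, blockDiagonal_apply, Finset.sum_mul, mul_right_comm]

theorem exists_bd_of {g : GL W3 F} (h : ∀ X : Matrix W3 W3 F, X = g ∨ X = (g⁻¹ : GL W3 F) →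
    ∀ P Q : W3, P.2 ≠ Q.2 → X P Q = 0) : ∃ f, g = bd f := by
  have e : ∀ X : Matrix W3 W3 F, X = g ∨ X = (g⁻¹ : GL W3 F) → blockDiagonal (blockDiag X) = X :=
    fun X hX => by
      ext ⟨i, P⟩ ⟨j, Q⟩
      rw [blockDiagonal_apply']
      split_ifs with k
      · rw [k, blockDiag_apply]
      · exact (h X hX _ _ k).symm
  have e1 := e _ (Or.inl rfl)
  have e2 := e _ (Or.inr rfl)
  have e3 : (fun j => blockDiag (g : Matrix W3 W3 F) j * blockDiag (g⁻¹ : GL W3 F) j) = 1 :=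
    blockDiagonal_injective (by rw [blockDiagonal_mul, e1, e2, Units.mul_inv, blockDiagonal_one])
  exact ⟨fun j => ⟨_, _, congrFun e3 j, mul_eq_one_comm.1 (congrFun e3 j)⟩, Units.ext e1.symm⟩

/-- inclusion of the block -/
def U0 (F : Type*) [Field F] : Matrix W3 Z3 F := of fun P i => if P = (i, 0) then 1 else 0

/-- the projection on the block -/
def e0 (F : Type*) [Field F] : Matrix W3 W3 F := U0 F * (U0 F)ᵀ

theorem U0_U0 : (U0 F)ᵀ * U0 F = 1 := by
  ext i j; simp [U0, mul_apply, one_apply, eq_comm]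

theorem e0_eq : e0 F = diagonal fun P => if P.2 = 0 then 1 else 0 := by
  ext ⟨i, P⟩ ⟨j, Q⟩; simp [e0, U0, mul_apply, diagonal_apply, ite_and]; grind

/-- the block of a matrix -/
def blk (X : Matrix W3 W3 F) : Matrix Z3 Z3 F := (U0 F)ᵀ * X * U0 F

theorem blk_apply (X : Matrix W3 W3 F) (i j : Z3) : blk X i j = X (i, 0) (j, 0) := by
  simp [blk, U0, mul_apply]

theorem mul_U0 {X : Matrix W3 W3 F} (h : X * e0 F = e0 F * X) : X * U0 F = U0 F * blk X := by
  rw [blk, ← Matrix.mul_assoc, ← Matrix.mul_assoc, ← e0, ← h, e0, Matrix.mul_assoc, Matrix.mul_assoc, U0_U0,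
    Matrix.mul_one]

theorem U0_mul {X : Matrix W3 W3 F} (h : X * e0 F = e0 F * X) : (U0 F)ᵀ * X = blk X * (U0 F)ᵀ := by
  rw [blk, Matrix.mul_assoc, Matrix.mul_assoc, ← e0, h, e0, Matrix.mul_assoc, ← Matrix.mul_assoc _ (U0 F),
    U0_U0, Matrix.one_mul]

theorem blk_mul {X : Matrix W3 W3 F} (h : X * e0 F = e0 F * X) (Y : Matrix W3 W3 F) :
    blk (X * Y) = blk X * blk Y := by
  rw [blk, ← Matrix.mul_assoc, U0_mul h, Matrix.mul_assoc, Matrix.mul_assoc, ← Matrix.mul_assoc _ Y, ← blk]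

theorem blk_one : blk (1 : Matrix W3 W3 F) = 1 := by rw [blk, Matrix.mul_one, U0_U0]

theorem comm_inv {ι : Type} [Fintype ι] [DecidableEq ι] {g : GL ι F} {X : Matrix ι ι F}
    (h : (g : Matrix ι ι F) * X = X * g) :
    ((g⁻¹ : GL ι F) : Matrix ι ι F) * X = X * (g⁻¹ : GL ι F) := (Commute.units_inv_left h).eq

/-- the block of an invertible matrix -/
def blkG (g : GL W3 F) (h : (g : Matrix W3 W3 F) * e0 F = e0 F * g) : GL Z3 F :=
  ⟨blk g, blk (g⁻¹ : GL W3 F), by rw [← blk_mul h, Units.mul_inv, blk_one],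
    by rw [← blk_mul (comm_inv h), Units.inv_mul, blk_one]⟩

/-- matrices acting on the block only -/
def emb : GL Z3 F →* GL W3 F := bd.comp (MonoidHom.mulSingle (fun _ => GL Z3 F) 0)

theorem emb_eq (k : GL Z3 F) : emb k = bd (Pi.mulSingle 0 k) := rfl

theorem emb_apply (k : GL Z3 F) (P Q : W3) : (emb k : Matrix W3 W3 F) P Q =
    if P.2 = Q.2 then if P.2 = 0 then (k : Matrix Z3 Z3 F) P.1 Q.1 else if P.1 = Q.1 then 1 else 0 else 0 := by
  simp only [emb_eq, bd_val, blockDiagonal_apply, Pi.mulSingle_apply]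
  split_ifs <;> simp [*, one_apply]

theorem emb_val (k : GL Z3 F) :
    (emb k : Matrix W3 W3 F) = 1 + U0 F * ((k : Matrix Z3 Z3 F) - 1) * (U0 F)ᵀ := by
  ext ⟨i, P⟩ ⟨j, Q⟩
  simp [emb_apply, U0, mul_apply, one_apply, ite_and]
  grind

theorem conj_emb {g : GL W3 F} (h : (g : Matrix W3 W3 F) * e0 F = e0 F * g) (k : GL Z3 F) :
    g * emb k * g⁻¹ = emb (blkG g h * k * (blkG g h)⁻¹) := Units.ext (by
  have : cj (blkG g h) k - 1 = cj (blkG g h) (k - 1) := by rw [map_sub, map_one]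
  rw [← cj_val, emb_val, emb_val, ← cj_val, map_add, map_one, this,
    cj_apply, cj_apply, Matrix.mul_assoc, Matrix.mul_assoc, U0_mul (comm_inv h), ← Matrix.mul_assoc,
    ← Matrix.mul_assoc, ← Matrix.mul_assoc, mul_U0 h]
  simp only [Matrix.mul_assoc]; rfl)

variable [Om F]

local notation "ω" => (Om.om : F)
local notation "N3" => Wy.N (wy3 F)
local notation "N9" => Wy.N (wy9 F)

theorem kr_mem {g k : GL Z3 F} (hg : g ∈ N3) (hk : k ∈ N3) : kr g k ∈ N9 := fun a => by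
  obtain ⟨b, i, e⟩ := hg a.1
  obtain ⟨c, j, e'⟩ := hk a.2
  exact ⟨(b, c), i + j, by rw [D9, cj_kr, e, e', smul_kronecker, kronecker_smul, smul_smul, χ_add]; rfl⟩

/-- the involution inverting the Weyl system -/
abbrev π3 (F : Type*) [Field F] : GL Z3 F := pm F (Equiv.neg Z3)

theorem cj_π (a : W3) : cj (π3 F) (D3 F a) = D3 F (-a) := by
  rw [cj_pm]; ext P Q
  simp only [D3, submatrix_apply, of_apply, Equiv.neg_apply, Prod.fst_neg, Prod.snd_neg, ← neg_add, mul_neg,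
    neg_mul, neg_eq_iff_eq_neg, neg_neg, neg_add (-Q)]

theorem π_mem : π3 F ∈ N3 := (wy3 F).mem_N fun a => ⟨_, 1, by rw [cj_π, one_smul]⟩

theorem π_sq : π3 F * π3 F = 1 := Units.mul_inv _ |> Units.ext

theorem shift_mem (t : Z3) : pm F (Equiv.addRight t) ∈ N3 := fun a => ⟨a, a.2 * (t + t), by
  rw [cj_pm]; ext P Q
  simp only [D3, submatrix_apply, of_apply, Equiv.coe_addRight, Matrix.smul_apply, smul_eq_mul, mul_ite,
    mul_zero, ← χ_add, add_right_comm Q t, add_left_inj]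
  congr 2; ring⟩

/-- exchange of the tensor factors -/
abbrev sw (F : Type*) [Field F] : GL W3 F := pm F (Equiv.prodComm Z3 Z3)

theorem cj_sw (A B : Matrix Z3 Z3 F) : cj (sw F) (A ⊗ₖ B) = B ⊗ₖ A := by
  rw [cj_pm]; ext ⟨i, P⟩ ⟨j, Q⟩; simp [mul_comm]

theorem sw_mem : sw F ∈ N9 := (wy9 F).mem_N fun a => ⟨a.swap, 1, by rw [D9, cj_sw, one_smul]; rfl⟩

theorem ctrl_mem (b : W3) : bd (fun j => (wy3 F).g (j • b)) ∈ N9 := (wy9 F).mem_N fun a =>
  ⟨(a.1 + a.2.1 • b, (a.2.1, a.2.2 + β3 b a.1)), 1, cj_eq_of (by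
    ext ⟨i, P⟩ ⟨j, Q⟩
    simp only [bd_val, D9, one_smul, bd_mul_kr, kr_mul_bd, Wy.g_val, (wy3 F).mul, Matrix.smul_apply,
      smul_eq_mul]
    rw [D3.eq_1 F a.2, D3.eq_1 F (a.2.1, _), of_apply, of_apply]
    split_ifs with e
    · rw [e, show (Q + a.2.1) • b + a.1 = a.1 + a.2.1 • b + Q • b by module, mul_right_comm, ← χ_add,
        mul_right_comm (χ F _), ← χ_add]
      congr 2
      simp only [map_add, map_smul, LinearMap.add_apply, LinearMap.smul_apply, smul_eq_mul, symp3.alt,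
        symp3.skew a.1 b]
      ring
    · simp)⟩

theorem exists_bd {g : GL W3 F} (h : (g : Matrix W3 W3 F) * D9 F (0, 0, 1) = D9 F (0, 0, 1) * g) :
    ∃ f, g = bd f := by
  have e : D9 F (0, 0, 1) = diagonal fun P => χ F (P.2 + P.2) := by
    ext ⟨i, P⟩ ⟨j, Q⟩; simp [D9, D3, diagonal_apply, ite_and]; grind
  have : ∀ X : Matrix W3 W3 F, X * D9 F (0, 0, 1) = D9 F (0, 0, 1) * X → ∀ P Q : W3, P.2 ≠ Q.2 → X P Q = 0 :=
    fun X hX P Q k => by
      have := congrFun (congrFun hX P) Q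
      rw [e, mul_diagonal, diagonal_mul, mul_comm] at this
      by_contra k'
      have := χ_inj (mul_right_cancel₀ k' this)
      exact k (by revert this; generalize P.2 = p; generalize Q.2 = q; revert p q; decide)
  exact exists_bd_of (by rintro _ (rfl | rfl); exacts [this _ h, this _ (comm_inv h)])

theorem ee_e0 : ee (D9 F) (0, 0, 1) 0 = e0 F := by
  rw [e0_eq, show ee (D9 F) (0, 0, 1) 0 = (1 : Matrix Z3 Z3 F) ⊗ₖ ee (D3 F) (0, 1) 0 by
    simp [ee, D9, kronecker_smul, kronecker_add, (wy3 F).zero], ee_z]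
  ext ⟨i, P⟩ ⟨j, Q⟩; simp [diagonal_apply, single_apply, one_apply, ite_and]; grind

end Cfsg.Agent.H5.T3
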