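import Cfsg.Agent.H5.T3.Pair
import Cfsg.Agent.H5.U.Field

/-! The concrete Weyl systems in dimensions three and nine. -/

set_option autoImplicit false
set_option linter.unusedSimpArgs false
set_option linter.unusedSectionVars false
set_option linter.unusedVariables false

namespace Cfsg.Agent.H5.T3

open Matrix Cfsg.Agent.H9.Sp Cfsg.Agent.H7
open scoped Kronecker

abbrev W3 := Z3 × Z3
abbrev W9 := W3 × W3

def β3 : W3 →ₗ[Z3] W3 →ₗ[Z3] Z3 := LinearMap.mk₂ Z3 (fun a b => a.2 * b.1 - b.2 * a.1)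
  (fun _ _ _ => by simp; ring) (fun _ _ _ => by simp; ring) (fun _ _ _ => by simp; ring)
  (fun _ _ _ => by simp; ring)

theorem β3_apply (a b : W3) : β3 a b = a.2 * b.1 - b.2 * a.1 := rfl

def β9 : W9 →ₗ[Z3] W9 →ₗ[Z3] Z3 := LinearMap.mk₂ Z3 (fun a b => β3 a.1 b.1 + β3 a.2 b.2)
  (fun _ _ _ => by simp; ring) (fun _ _ _ => by simp; ring) (fun _ _ _ => by simp; ring)
  (fun _ _ _ => by simp; ring)

theorem β9_apply (a b : W9) : β9 a b = β3 a.1 b.1 + β3 a.2 b.2 := rfl

theorem symp3 : Symp β3 := ⟨fun v => by simp [β3_apply], fun z hz => Prod.ext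
  (by simpa [β3_apply] using hz (0, 1)) (by simpa [β3_apply] using hz (1, 0))⟩

theorem symp9 : Symp β9 := ⟨fun v => by simp [β9_apply, symp3.alt], fun z hz => Prod.ext
  (symp3.nd _ fun a => by simpa [β9_apply] using hz (a, 0))
  (symp3.nd _ fun a => by simpa [β9_apply] using hz (0, a))⟩

variable (F : Type*) [Field F] [Om F]

local notation "ω" => (Om.om : F)

def D3 (a : W3) : Matrix Z3 Z3 F := of fun P Q => if P = Q + a.1 then χ F (a.2 * (P + Q)) else 0

def D9 (a : W9) : Matrix W3 W3 F := D3 F a.1 ⊗ₖ D3 F a.2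

theorem wy3 : Wy β3 (D3 F) where
  symp := symp3
  zero := by ext P Q; simp [D3, one_apply]
  mul a b := by
    ext P R
    rw [mul_apply, Finset.sum_eq_single (R + b.1) (fun Q _ h => by simp [D3, h]) (by simp)]
    simp only [D3, of_apply, if_true, Matrix.smul_apply, Prod.fst_add, Prod.snd_add, smul_eq_mul,
      add_assoc, add_comm b.1, ite_mul, mul_ite, zero_mul, mul_zero]
    split_ifs with e
    · rw [← χ_add, ← χ_add, β3_apply, e]
      congr 1; ring
    · rfl
  card := by simp [sq]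
  ne := by simpa using h3

theorem wy9 : Wy β9 (D9 F) where
  symp := symp9
  zero := by simp [D9, (wy3 F).zero]
  mul a b := by
    rw [D9, D9, ← mul_kronecker_mul, (wy3 F).mul, (wy3 F).mul, smul_kronecker, kronecker_smul, smul_smul,
      ← χ_add]
    rfl
  card := by simp [sq]
  ne := by
    simpa [show (3 : F) * 3 = 9 by norm_num] using mul_ne_zero (h3 (F := F)) h3

variable {F}

/-- what is known on an overgroup with a transvection in a block -/
structure Nine (M : Subgroup (GL W3 F)) : Prop where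
  diag : ∀ i : Z3, InM M (diagonal fun P => if P.1 = i then ω else 1)
  shift : ∀ a : W3, InM M (of fun P Q => if P = Q + a then 1 else 0)
  neg : InM M (of fun P Q => if P = (-Q.1, Q.2) then 1 else 0)
  swap : InM M (of fun P Q => if P = Q.swap then 1 else 0)
  four : InM M (1 + ((ω - 1) / 3) • of fun P Q => if P.2 = Q.2 then 1 else 0)
  tv : ∃ v φ : W3 → F, v ≠ 0 ∧ φ ≠ 0 ∧ φ ⬝ᵥ v = 0 ∧ (∀ P, P.2 ≠ 0 → v P = 0 ∧ φ P = 0) ∧
    InM M (1 + vecMulVec v φ)

variable (F)

def BigSL : Prop := (∀ c : F, ∃ n : ℕ, c = n) → ∀ M : Subgroup (GL W3 F), Nine M →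
  ∀ g : GL W3 F, (g : Matrix W3 W3 F).det = 1 → g ∈ M

def BigSU [StarRing F] : Prop := (∀ c : U.F0 F, ∃ n : ℕ, c = n) → star ω = ω ^ 2 →
  ∀ M : Subgroup (GL W3 F), Nine M →
  (∀ g ∈ M, ∃ c : F, (g : Matrix W3 W3 F)ᴴ * g = c • 1) →
  ∀ g : GL W3 F, (g : Matrix W3 W3 F)ᴴ * g = 1 → (g : Matrix W3 W3 F).det = 1 → g ∈ M

/-- an absolutely irreducible `3^{1+2m}` in dimension nine is a Weyl system -/
def Bridge (F : Type*) [Field F] : Prop := ∀ R : Subgroup (GL (Fin 9) F),
  Geo.IsSymplecticTypeGroup 3 R → Geo.ActsAbsolutelyIrreducibly (Geo.matrixSet R) →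
  Nat.card (Subgroup.center R) = 3 → ∃ (_ : Om F) (D : W9 → Matrix (Fin 9) (Fin 9) F), Wy β9 D ∧
    ∀ X, InM R X ↔ ∃ a k, X = χ F k • D a

end Cfsg.Agent.H5.T3
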