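import Cfsg.Agent.H5.T3.Conc

/-! The Hessian group is maximal among groups without transvections. -/

set_option autoImplicit false
set_option linter.unusedSimpArgs false
set_option linter.unusedSectionVars false
set_option linter.unusedVariables false

namespace Cfsg.Agent.H5.T3

open Matrix Cfsg.Agent.H9.Sp Cfsg.Agent.H7

variable {F : Type*} [Field F] [Om F]

local notation "ω" => (Om.om : F)
local notation "N3" => Wy.N (wy3 F)
local notation "E3" => ee (D3 F)

theorem ee_z (j : Z3) : E3 (0, 1) j = single (-j) (-j) 1 := by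
  have := h3 (F := F)
  ext P Q
  simp only [ee, D3, Matrix.smul_apply, Matrix.add_apply, of_apply, one_apply, single_apply, Prod.fst_neg,
    neg_zero, add_zero, smul_eq_mul, mul_ite, mul_zero, ← χ_add, Prod.snd_neg]
  by_cases e : P = Q
  · subst e
    simp only [if_true, and_self]
    split_ifs with k
    · rw [show -j + 1 * (P + P) = 0 by revert j P; decide,
        show j + -1 * (P + P) = 0 by revert j P; decide, χ_zero]
      field_simp; norm_num
    · rw [show -j + 1 * (P + P) = -(j + P) by revert j P; decide,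
        show j + -1 * (P + P) = j + P by revert j P; decide, add_right_comm,
        χ_sum fun e => k (by linear_combination -e), mul_zero]
  · simp [e]; grind

theorem rk1_ee {a : W3} (ha : a ≠ 0) (j : Z3) : Rk1 (E3 a j) := by
  obtain ⟨g, -, hg⟩ := (wy3 F).trans (a := (0, 1)) (by decide) ha
  rw [← sub_zero j, ← (wy3 F).cj_ee (k := 0) (by rw [hg, χ_zero, one_smul]), ee_z]
  exact Rk1.cj ⟨Pi.single (-j) 1, Pi.single (-j) 1, by simp, single_eq_single_vecMulVec_single _ _⟩ g

theorem par3 {a b : W3} (ha : a ≠ 0) (hb : b ≠ 0) (h : β3 a b = 0) : b = a ∨ b = -a := by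
  simp only [β3_apply] at h; revert a b; decide +kernel

theorem mem_N3 {g : GL Z3 F} (H : ∀ a, a ≠ 0 → ∀ j, ∃ b k, b ≠ 0 ∧ cj g (E3 a j) = E3 b k) : g ∈ N3 := by
  have h := wy3 F
  have t := h3 (F := F)
  refine h.mem_N fun a => ?_
  by_cases ha : a = 0
  · exact ⟨0, 1, by simp [ha, h.zero]⟩
  obtain ⟨b, k, hb, e⟩ := H a ha 0
  obtain ⟨b', k', hb', e'⟩ := H a ha 1
  have e1 : E3 b k * E3 b' k' = 0 := by rw [← e, ← e', ← map_mul, h.ee_mul, if_neg (by decide), map_zero]
  have e2 : β3 b b' = 0 := by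
    by_contra e2
    simpa [e1, t, t.symm] using h.trace_ee_mul e2 k k'
  obtain ⟨l, e3⟩ : ∃ l, E3 b' k' = E3 b (k + l) := by
    rcases par3 hb hb' e2 with rfl | rfl
    exacts [⟨k' - k, by simp⟩, ⟨-k' - k, by simp [ee_neg]⟩]
  have hl : l ≠ 0 := by
    rintro rfl
    rw [e3, add_zero, h.ee_idem] at e1
    simpa [e1, t] using h.trace_ee hb k
  have e4 := congrArg (cj g) (h.hh_mul_inv a 0 one_ne_zero)
  rw [Units.val_mul, map_mul, h.hh_val, h.hh_inv_val, zero_add, map_add, map_add, map_one, map_smul,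
    map_smul, e, e', e3, ← h.hh_val, ← h.hh_inv_val, ← Units.val_mul, h.hh_mul_inv b k hl, map_smul,
    one_smul] at e4
  exact ⟨_, _, by rw [(eq_inv_smul_iff₀ (χ_ne _)).2 e4.symm, smul_smul]⟩

theorem alg1 (h2 : (2 : F) ≠ 0) {x y z n : F} (s : x + y + z = 1)
    (t : 9 * (x ^ 2 + y ^ 2 + z ^ 2) = 3 + 2 * n) (hx : MV x) (hy : MV y) (hz : MV z) : n = 0 := by
  have := h3 (F := F)
  rcases hx with hx | hx | ⟨hx, _⟩ <;> rcases hy with hy | hy | ⟨hy, _⟩ <;>
    rcases hz with hz | hz | ⟨hz, _⟩ <;> grind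

theorem alg2 (h2 : (2 : F) ≠ 0) {y z n : F} (s : y + z = 1)
    (t : 9 * (y ^ 2 + z ^ 2) = 3 + 2 * n) (hy : y = 0 ∨ MV y) (hz : z = 0 ∨ MV z) :
    n = 1 ∨ (n = 2 ∧ (5 : F) ≠ 0) := by
  have := h3 (F := F)
  rcases hy with hy | hy | hy | ⟨hy, _⟩ <;> rcases hz with hz | hz | hz | ⟨hz, _⟩ <;> grind

theorem span3 {a b w : W3} (h : β3 a b ≠ 0) (hw : w ≠ 0) : ∃ c, (w = c ∨ w = -c) ∧ (c = a ∨ c = b ∨
    c = a + β3 a b • b ∨ c = a + β3 a b • b + β3 (a + β3 a b • b) b • b) := by
  simp only [β3_apply] at *; revert a b w; decide +kernel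

theorem exists_ee [Finite F] (h2 : (2 : F) ≠ 0) {K : Subgroup (GL Z3 F)} (hN : N3 ≤ K) (hK : ¬ HasTv K)
    {P : Matrix Z3 Z3 F} (hP : Rk1 P) (hP' : InM K (1 + (ω - 1) • P)) : ∃ b k, b ≠ 0 ∧ P = E3 b k := by
  by_contra! H
  have h := wy3 F
  have t3 := h3 (F := F)
  let Zr : W3 → Prop := fun b => ∃ k, P * E3 b k = 0 ∧ E3 b k * P = 0
  let n : W3 → F := fun b => 3 * ((P * D3 F b).trace * (P * D3 F (-b)).trace)
  have hp : ∀ b, b ≠ 0 → ∀ k, (P * E3 b k = 0 ∧ E3 b k * P = 0) ∨ MV (P * E3 b k).trace :=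
    fun b hb k => (pair hK hP (rk1_ee hb k) hP' (InM.of (hN (h.hh_mem b k)))).resolve_left (H b k hb)
  have s1 : ∀ b, (P * E3 b 0).trace + (P * E3 b 1).trace + (P * E3 b 2).trace = 1 := fun b => by
    rw [← trace_add, ← trace_add, ← mul_add, ← mul_add, ee_sum, mul_one, hP.trace]
  have s2 : ∀ b, 9 * ((P * E3 b 0).trace ^ 2 + (P * E3 b 1).trace ^ 2 + (P * E3 b 2).trace ^ 2) =
      3 + 2 * n b := fun b => by
    have := om_eq (F := F)
    simp only [n, ee, mul_smul_comm, mul_add, mul_one, trace_smul, trace_add, hP.trace, smul_eq_mul,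
      neg_zero, χ_zero, χ_one, χ_two, χ_neg_one, χ_neg_two]
    field_simp; grind
  have n0 : ∀ b, b ≠ 0 → ¬ Zr b → n b = 0 := fun b hb hz =>
    have := fun k => (hp b hb k).resolve_left fun e => hz ⟨k, e⟩
    alg1 h2 (s1 b) (s2 b) (this 0) (this 1) (this 2)
  have n1 : ∀ b, b ≠ 0 → Zr b → n b = 1 ∨ (n b = 2 ∧ (5 : F) ≠ 0) := fun b hb ⟨k, e, _⟩ => by
    have q := fun k => (hp b hb k).imp_left fun e => (by rw [e.1, trace_zero] : (P * E3 b k).trace = 0)
    have a := s1 b
    have c := s2 b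
    rcases z3 k with rfl | rfl | rfl <;> rw [e, trace_zero] at a c
    · exact alg2 h2 (by linear_combination a) (by linear_combination c) (q 1) (q 2)
    · exact alg2 h2 (by linear_combination a) (by linear_combination c) (q 0) (q 2)
    · exact alg2 h2 (by linear_combination a) (by linear_combination c) (q 0) (q 1)
  have z1 : ∀ b, Zr b → Zr (-b) := fun b ⟨k, e⟩ => ⟨-k, by rwa [ee_neg, neg_neg]⟩
  have z2 : ∀ a b, Zr a → Zr b → Zr (a + β3 a b • b) := fun a b ⟨j, e1, e2⟩ ⟨k, e3, e4⟩ => by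
    obtain ⟨l, e⟩ := h.cj_hh b k a
    have : cj (h.hh b k) P = P := cj_eq_of (by simp [mul_add, add_mul, e3, e4])
    exact ⟨j - l, by rw [← h.cj_ee e, ← this, ← map_mul, e1, map_zero],
      by rw [← h.cj_ee e, ← this, ← map_mul, e2, map_zero]⟩
  have z3 : ∀ a b, β3 a b ≠ 0 → Zr a → Zr b → ∀ w, w ≠ 0 → Zr w := fun a b hab ha hb w hw => by
    obtain ⟨c, e, e'⟩ := span3 hab hw
    have : Zr c := by
      rcases e' with rfl | rfl | rfl | rfl
      exacts [ha, hb, z2 _ _ ha hb, z2 _ _ (z2 _ _ ha hb) hb]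
    rcases e with rfl | rfl
    exacts [this, z1 _ this]
  have par : n (1, 0) + n (0, 1) + n (1, 1) + n (1, 2) = 3 := by
    have e := congrArg (fun X => (P * X).trace) (h.expand P)
    have e' : ∀ b, (P * D3 F (-b)).trace * (P * D3 F b).trace = n b / 3 := fun b => by
      simp only [n]; field_simp
    have e2 : ∀ b, n (-b) = n b := fun b => by simp only [n, neg_neg, mul_comm]
    simp only [hP.idem, hP.trace, Finset.mul_sum, trace_sum, mul_smul_comm, trace_smul, smul_eq_mul,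
      mul_assoc, e'] at e
    simp only [Fintype.sum_prod_type, sum3, ZMod.card, Nat.cast_ofNat] at e
    have e0 : n (0, 0) = 3 := by simp [n, show ((0, 0) : W3) = 0 from rfl, h.zero, hP.trace]
    rw [e0, show ((0, 2) : W3) = -(0, 1) from rfl, show ((2, 0) : W3) = -(1, 0) from rfl,
      show ((2, 1) : W3) = -(1, 2) from rfl, show ((2, 2) : W3) = -(1, 1) from rfl, e2, e2, e2, e2] at e
    field_simp at e
    exact mul_left_cancel₀ h2 (by linear_combination -e)
  by_cases H2 : ∃ a b, β3 a b ≠ 0 ∧ Zr a ∧ Zr b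
  · obtain ⟨a, b, hab, ha, hb⟩ := H2
    have q := fun w hw => n1 w hw (z3 a b hab ha hb w hw)
    have q1 := q (1, 0) (by decide)
    have q2 := q (0, 1) (by decide)
    have q3 := q (1, 1) (by decide)
    have q4 := q (1, 2) (by decide)
    clear_value n
    have h4 : (4 : F) ≠ 0 := by simpa [show (2 : F) * 2 = 4 by norm_num] using mul_ne_zero h2 h2
    clear * - q1 q2 q3 q4 par h2 t3 h4
    grind
  · push Not at H2
    have q : ∀ a b, β3 a b ≠ 0 → n a = 0 ∨ n b = 0 := fun a b hab => by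
      by_cases e : Zr a
      · exact Or.inr (n0 b (by rintro rfl; simp at hab) (H2 a b hab e))
      · exact Or.inl (n0 a (by rintro rfl; simp at hab) e)
    have r : ∀ a, a ≠ 0 → n a = 0 ∨ n a = 1 ∨ n a = 2 := fun a ha => by
      by_cases e : Zr a
      · exact Or.inr ((n1 a ha e).imp_right And.left)
      · exact Or.inl (n0 a ha e)
    have q1 := q (1, 0) (0, 1) (by decide)
    have q2 := q (1, 0) (1, 1) (by decide)
    have q3 := q (1, 0) (1, 2) (by decide)
    have q4 := q (0, 1) (1, 1) (by decide)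
    have q5 := q (0, 1) (1, 2) (by decide)
    have q6 := q (1, 1) (1, 2) (by decide)
    have r1 := r (1, 0) (by decide)
    have r2 := r (0, 1) (by decide)
    have r3 := r (1, 1) (by decide)
    have r4 := r (1, 2) (by decide)
    clear_value n
    clear * - q1 q2 q3 q4 q5 q6 r1 r2 r3 r4 par h2 t3
    grind

theorem dim3 [Finite F] (h2 : (2 : F) ≠ 0) {K : Subgroup (GL Z3 F)} (hN : N3 ≤ K) (hK : ¬ HasTv K) :
    K ≤ N3 := fun g hg => mem_N3 fun a ha j => exists_ee h2 hN hK ((rk1_ee ha j).cj g) (by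
  simpa using (InM.of (hN ((wy3 F).hh_mem a j))).cj hg)

theorem exists_ee2 [StarRing F] (hs : ∀ x : F, star x = x ^ 2) {P : Matrix Z3 Z3 F} (hP : Rk1 P)
    (hP' : Pᴴ = P) : ∃ b k, b ≠ 0 ∧ P = E3 b k := by
  have h2 : (2 : F) = 0 := by
    have := hs (1 + 1)
    rw [star_add, star_one] at this
    linear_combination -this
  have e1 : ∀ i j, P i j ^ 2 = P j i := fun i j => by rw [← hs, ← conjTranspose_apply, hP']
  have e2 : ∀ i j k, P i j * P j k = P i k * P j j := fun i j k => by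
    obtain ⟨v, φ, -, rfl⟩ := hP
    simp only [vecMulVec_apply]; ring
  have e3 := hP.trace
  rw [trace, sum3] at e3
  simp only [diag_apply] at e3
  have e4 : ∀ i, P i i = 0 ∨ P i i = 1 := fun i => by have := e1 i i; grind
  have e5 : ∀ i j, P i j ^ 3 = P i i * P j j := fun i j => by rw [← e2, ← e1 i j]; ring
  have e6 : ∀ i, P i i = 1 → (∀ j, j ≠ i → P j j = 0) → ∃ b k, b ≠ 0 ∧ P = E3 b k := fun i hi hj =>
    ⟨(0, 1), -i, by decide, by
      rw [ee_z, neg_neg]
      ext j k
      rw [single_apply]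
      split_ifs with e
      · rw [← e.1, ← e.2, hi]
      · refine eq_zero_of_pow_eq_zero (n := 3) ?_
        rw [e5, mul_eq_zero]
        exact (not_and_or.1 e).imp (fun e => hj _ (Ne.symm e)) fun e => hj _ (Ne.symm e)⟩
  by_cases H : ∀ i, P i i = 1
  · obtain ⟨x, hx⟩ := exists_χ (c := P 1 0) (by rw [e5, H, H, one_mul])
    obtain ⟨y, hy⟩ := exists_χ (c := P 2 1) (by rw [e5, H, H, one_mul])
    have hz : P 2 0 = χ F (y + x) := by rw [χ_add, ← hx, ← hy, e2, H, mul_one]
    have i3 : (3 : F)⁻¹ = 1 := inv_eq_of_mul_eq_one_right (by linear_combination h2)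
    refine ⟨(1, x - y), -y, by simp, ?_⟩
    ext i j
    simp only [ee, D3, i3, one_smul, Matrix.add_apply, Matrix.smul_apply, of_apply, smul_eq_mul,
      mul_ite, mul_zero, ← χ_add, Prod.fst_neg, Prod.snd_neg, one_apply, one_mul]
    rcases z3 i with rfl | rfl | rfl <;> rcases z3 j with rfl | rfl | rfl <;>
      simp (decide := true) only [H, if_true, if_false, add_zero, zero_add] <;>
      first | done | rw [hx] | rw [hy] | rw [hz] | rw [← e1, hx, sq, ← χ_add] | rw [← e1, hy, sq, ← χ_add] |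
        rw [← e1, hz, sq, ← χ_add]
    all_goals congr 1; revert x y; intro x _ y _ _; clear * -; revert x y; decide
  · have e7 : ∀ p : Z3 → Prop, p 0 → p 1 → p 2 → ∀ i, p i := fun p a b c i => by
      rcases z3 i with rfl | rfl | rfl <;> assumption
    rcases e4 0 with a | a <;> rcases e4 1 with b | b <;> rcases e4 2 with c | c
    · grind
    · exact e6 2 c (e7 _ (fun _ => a) (fun _ => b) (by simp))
    · exact e6 1 b (e7 _ (fun _ => a) (by simp) fun _ => c)
    · grind
    · exact e6 0 a (e7 _ (by simp) (fun _ => b) fun _ => c)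
    · grind
    · grind
    · exact absurd (e7 _ a b c) H

theorem star_χ [StarRing F] (hs : star ω = ω ^ 2) (k : Z3) : star (χ F k) = χ F (-k) := by
  rcases z3 k with rfl | rfl | rfl
  · simp
  · rw [χ_one, hs, χ_neg_one]
  · rw [χ_two, star_pow, hs, χ_neg_two]; linear_combination ω * om_cube (F := F)

theorem D3_conjT [StarRing F] (hs : star ω = ω ^ 2) (a : W3) : (D3 F a)ᴴ = D3 F (-a) := by
  ext P Q
  simp only [D3, conjTranspose_apply, of_apply, apply_ite star, star_χ hs, star_zero, Prod.fst_neg,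
    Prod.snd_neg, neg_mul, add_comm P, eq_add_neg_iff_add_eq, eq_comm (a := Q)]

theorem ee_conjT [StarRing F] (hs : star ω = ω ^ 2) {W ι : Type} [AddCommGroup W] [Fintype ι]
    [DecidableEq ι] {D : W → Matrix ι ι F} (hD : ∀ a, (D a)ᴴ = D (-a)) (a : W) (j : Z3) :
    (ee D a j)ᴴ = ee D a j := by
  simp [ee, hD, star_χ hs, add_right_comm]

theorem dim3_two [StarRing F] (hs : ∀ x : F, star x = x ^ 2) {g : GL Z3 F}
    (hg : (g : Matrix Z3 Z3 F)ᴴ * g = 1) : g ∈ N3 :=
  mem_N3 fun a ha j => exists_ee2 hs ((rk1_ee ha j).cj g) (by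
    rw [cj_apply, Units.inv_eq_of_mul_eq_one_left hg, conjTranspose_mul, conjTranspose_mul,
      ee_conjT (hs _) (D3_conjT (hs _)), conjTranspose_conjTranspose, mul_assoc])

end Cfsg.Agent.H5.T3
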