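import Cfsg.Agent.H5.T3.Main
import Cfsg.Agent.H1.T3SL
import Cfsg.Agent.H1.T3SU
import Cfsg.Agent.H1.T3Bridge
import Cfsg.Agent.H1.FrameMain
import Cfsg.Agent.H5.U.Bridge

/-! Normalisers of `3^{1+4}` in `SL₉(p)` and `SU₉(p)`. -/

set_option autoImplicit false
set_option linter.unusedSimpArgs false
set_option linter.unusedSectionVars false
set_option linter.unusedVariables false

namespace Cfsg.Agent.H5.T3

open Matrix Cfsg.Agent.H9.Sp Cfsg.Agent.H7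
open scoped Kronecker

variable {F : Type*} [Field F] [Om F]

local notation "ω" => (Om.om : F)
local notation "N3" => Wy.N (wy3 F)
local notation "N9" => Wy.N (wy9 F)
local notation "g3" => Wy.g (wy3 F)
local notation "SL9" => Geo.specialLinear W3 F

theorem mem_SL {ι : Type} [Fintype ι] [DecidableEq ι] {g : GL ι F} :
    g ∈ Geo.specialLinear ι F ↔ (g : Matrix ι ι F).det = 1 := Units.ext_iff

theorem nine_of {M : Subgroup (GL W3 F)} (hN : N9 ≤ M) (hT : HasTv (M.comap emb)) : Nine M where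
  diag i := ⟨_, hN (kr_mem ((wy3 F).hh_mem (0, 1) (-i)) (one_mem _)), by
    rw [kr_val, Wy.hh_val, ee_z]
    ext ⟨j, P⟩ ⟨k, Q⟩; simp [single_apply, one_apply, diagonal_apply, ite_and]; grind⟩
  shift a := ⟨_, hN (kr_mem (shift_mem (-a.1)) (shift_mem (-a.2))), by
    ext ⟨j, P⟩ ⟨k, Q⟩; simp [kr_val, pm_apply, Prod.ext_iff, ite_and, add_neg_eq_iff_eq_add]; grind⟩
  neg := ⟨_, hN (kr_mem π_mem (one_mem _)), by
    ext ⟨j, P⟩ ⟨k, Q⟩; simp [kr_val, pm_apply, one_apply, ite_and, neg_eq_iff_eq_neg]; grind⟩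
  swap := ⟨_, hN sw_mem, by ext ⟨j, P⟩ ⟨k, Q⟩; simp [pm_apply, and_comm]⟩
  four := ⟨_, hN (kr_mem ((wy3 F).hh_mem (1, 0) 0) (one_mem _)), by
    rw [kr_val, Wy.hh_val, ee_x]
    ext ⟨j, P⟩ ⟨k, Q⟩; simp [one_apply, ite_and, div_eq_mul_inv]; grind⟩
  tv := by
    obtain ⟨v, φ, h1, h2, h3, k, hk, e⟩ := hT
    have a : ∀ (v : Z3 → F) P, (U0 F *ᵥ v) P = if P.2 = 0 then v P.1 else 0 := fun v ⟨i, P⟩ => by
      simp [U0, mulVec, dotProduct, ite_and]
    have b : ∀ v : Z3 → F, v ≠ 0 → U0 F *ᵥ v ≠ 0 := fun v hv e =>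
      hv (funext fun i => by simpa [a] using congrFun e (i, 0))
    refine ⟨U0 F *ᵥ v, U0 F *ᵥ φ, b v h1, b φ h2, ?_, fun P h => by simp [a, h], _, hk, ?_⟩
    · rw [dotProduct_mulVec, ← vecMul_transpose, vecMul_vecMul, U0_U0, vecMul_one, h3]
    · rw [emb_val, e, add_sub_cancel_left, mul_vecMulVec, vecMulVec_mul, vecMul_transpose]

theorem det_hh {a : W9} (ha : a ≠ 0) (j : Z3) : (wy9 F).hh a j ∈ SL9 := by
  obtain ⟨g, -, e⟩ := (wy9 F).trans' (a := (0, 0, 1)) (by decide) ha (-j)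
  have := (wy9 F).cj_hh_val e 0
  rw [zero_sub, neg_neg] at this
  rw [← this]
  refine (MonoidHom.normal_ker _).conj_mem _ (Units.ext ?_) g
  have e1 : ((wy9 F).hh (0, 0, 1) 0 : Matrix W3 W3 F) = diagonal fun P => if P.2 = 0 then ω else 1 := by
    rw [Wy.hh_val, ee_e0, e0_eq]
    ext P Q; simp [one_apply, diagonal_apply]; grind
  rw [GeneralLinearGroup.val_det_apply, e1, det_diagonal, Fintype.prod_prod_type]
  simpa using om_cube (F := F)

theorem core [Finite F] {U M : Subgroup (GL W3 F)} (hU : ∀ a j, (wy9 F).hh a j ∈ U)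
    (hM : M ≤ U ⊓ SL9) (hN : N9 ⊓ (U ⊓ SL9) ≤ M)
    (h2 : (2 : F) ≠ 0 ∨ ∀ f (c : F), ∀ u ∈ U, (bd f : Matrix W3 W3 F) = c • u.1 → f 0 ∈ N3)
    (big : ∀ K, Nine K → (∀ g ∈ K, ∃ c : F, ∃ u ∈ U, (g : Matrix W3 W3 F) = c • u.1) → U ⊓ SL9 ≤ K) :
    M ≤ N9 ∨ U ⊓ SL9 ≤ M := by
  let K : Subgroup (GL W3 F) :=
    { carrier := {g | ∃ c : F, ∃ m ∈ M, (g : Matrix W3 W3 F) = c • m.1}
      one_mem' := ⟨1, 1, one_mem _, by simp⟩
      mul_mem' := by
        rintro _ _ ⟨c, m, h, e⟩ ⟨d, n, h', e'⟩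
        exact ⟨c * d, _, mul_mem h h', by simp [e, e', smul_smul, mul_comm]⟩
      inv_mem' := by
        rintro g ⟨c, m, h, e⟩
        exact ⟨c⁻¹, _, inv_mem h, Units.inv_eq_of_mul_eq_one_right (by
          simp [e, smul_smul, ne_of_smul e])⟩ }
  have hK : M ≤ K := fun m h => ⟨1, m, h, by simp⟩
  have hS : ∀ g : GL W3 F, IsScal g.1 → g ∈ K := fun g ⟨c, e⟩ => ⟨c, 1, one_mem _, e⟩
  have hNK : N9 ≤ K := (wy9 F).N_le hS fun a j => by
    by_cases ha : a = 0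
    · refine hS _ (isScal_one.add (IsScal.smul (IsScal.smul ?_ _) _))
      rw [ha, neg_zero, (wy9 F).zero]
      exact (isScal_one.add (isScal_smul_one _)).add (isScal_smul_one _)
    · exact hK (hN ⟨(wy9 F).hh_mem a j, hU a j, det_hh ha j⟩)
  refine (main hNK (h2.imp_right fun h f ⟨c, m, hm, e⟩ => h f c m (hM hm).1 e)).imp hK.trans
    fun hT g hg => ?_
  obtain ⟨c, m, hm, e⟩ := big K (nine_of hNK hT) (fun g ⟨c, m, hm, e⟩ => ⟨c, m, (hM hm).1, e⟩) hg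
  simpa using mul_mem (hN (x := g * m⁻¹) ⟨(wy9 F).mem_of_scal ⟨c, by simp [e]⟩,
    Subgroup.mul_mem _ hg (inv_mem (hM hm))⟩) hm

theorem det_emb (k : GL Z3 F) : (emb k : Matrix W3 W3 F).det = (k : Matrix Z3 Z3 F).det := by
  rw [emb_eq, bd_val, det_blockDiagonal, Fintype.prod_eq_single 0 fun j hj => by simp [hj]]; simp

theorem emb_Z_val : (emb (g3 (0, 1)) : Matrix W3 W3 F) =
    diagonal fun P => if P.2 = 0 then χ F (P.1 + P.1) else 1 := by
  ext ⟨i, P⟩ ⟨j, Q⟩; simp [emb_apply, D3, diagonal_apply, ite_and]; grind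

theorem emb_Z : emb (g3 (0, 1)) ∈ SL9 ∧ emb (g3 (0, 1)) ∉ N9 := by
  refine ⟨Units.ext ?_, fun h => ?_⟩
  · rw [GeneralLinearGroup.val_det_apply, emb_Z_val, det_diagonal, Fintype.prod_prod_type]
    simp (decide := true) [show ∀ f : Z3 → F, ∏ j, f j = f 0 * f 1 * f 2 from Fin.prod_univ_three, ← χ_add]
    exact χ_zero
  · obtain ⟨b, k, h⟩ := h (0, 1, 0)
    have h := mul_eq_of_cj h
    rw [emb_Z_val, D9, D9, D3, D3] at h
    have h1 := congrFun (congrFun h (0, 2)) (0, 1)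
    have h2 := congrFun (congrFun h (1, 2)) (1, 1)
    have h3 := congrFun (congrFun h (0, 1)) (0, 0)
    have h4 := congrFun (congrFun h (1, 1)) (1, 0)
    simp (decide := true) at h1 h2 h3 h4
    have := χ_eq_one (F := F) (k := 1 + 1) (by grind)
    revert this; decide

/-- the standard unitary group -/
def UG (ι : Type) [Fintype ι] [DecidableEq ι] (F : Type*) [Field F] [StarRing F] : Subgroup (GL ι F) where
  carrier := {g | (g : Matrix ι ι F)ᴴ * g = 1}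
  one_mem' := by simp
  mul_mem' {a b} h h' := by
    rw [Set.mem_setOf_eq] at *
    rw [Units.val_mul, conjTranspose_mul, mul_assoc, ← mul_assoc _ a.1, h, one_mul, h']
  inv_mem' {a} h := by
    rw [Set.mem_setOf_eq] at *
    rw [Units.inv_eq_of_mul_eq_one_left h, conjTranspose_conjTranspose, mul_eq_one_comm.1 h]

theorem max_of [Finite F] {R G : Subgroup (GL (Fin 9) F)} {D : W9 → Matrix (Fin 9) (Fin 9) F} (h : Wy β9 D)
    (hR : ∀ X, InM R X ↔ ∃ a k, X = χ F k • D a) {Φ : Matrix W3 W3 F ≃ₐ[F] Matrix (Fin 9) (Fin 9) F}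
    (hΦ : ∀ a, Φ (D9 F a) = D a) (hd : ∀ X, (Φ X).det = X.det) {U : Subgroup (GL W3 F)}
    (hG : ∀ g, Units.mapEquiv Φ.toMulEquiv g ∈ G ↔ g ∈ U) (hx : emb (g3 (0, 1)) ∈ U)
    (core : ∀ M, M ≤ U ⊓ SL9 → N9 ⊓ (U ⊓ SL9) ≤ M → M ≤ N9 ∨ U ⊓ SL9 ≤ M) :
    Geo.IsMaximalIn (G ⊓ Geo.specialLinear (Fin 9) F)
      (Geo.subgroupNormalizer R ⊓ (G ⊓ Geo.specialLinear (Fin 9) F)) := by
  set φ := Units.mapEquiv Φ.toMulEquiv
  have e1 : ∀ g, φ g ∈ G ⊓ Geo.specialLinear (Fin 9) F ↔ g ∈ U ⊓ SL9 := fun g =>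
    and_congr (hG g) (mem_SL.trans (hd g ▸ mem_SL.symm))
  have e2 : ∀ g X, cj (φ g) (Φ X) = Φ (cj g X) := fun g X => by
    rw [cj_apply, cj_apply, map_mul, map_mul, ← map_inv]; rfl
  have e3 : ∀ g, φ g ∈ h.N ↔ g ∈ N9 := fun g => forall_congr' fun a => exists₂_congr fun b k => by
    rw [← hΦ, ← hΦ, e2, ← map_smul, Φ.injective.eq_iff]
  have e4 : ∀ g ∈ h.N, ∀ r ∈ R, g * r * g⁻¹ ∈ R := fun g hg r hr => by
    obtain ⟨a, k, e⟩ := (hR _).1 (InM.of hr)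
    obtain ⟨b, l, e'⟩ := hg a
    exact inM_iff.1 ((hR _).2 ⟨b, k + l, by rw [← cj_val, e, map_smul, e', smul_smul, χ_add]⟩)
  have e5 : Geo.subgroupNormalizer R = h.N := le_antisymm (fun g hg a =>
    (hR _).1 (cj_val g (h.g a) ▸ InM.of ((Subgroup.mem_normalizer_iff.1 hg _).1
      (inM_iff.1 ((hR _).2 ⟨a, 0, by simp⟩))))) fun g hg => Subgroup.mem_normalizer_iff.2 fun r =>
        ⟨e4 g hg r, fun k => by simpa [mul_assoc] using e4 _ (inv_mem hg) _ k⟩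
  rw [e5]
  refine ⟨lt_of_le_of_ne inf_le_right fun e => emb_Z.2 ((e3 _).1 (e.ge ((e1 _).2 ⟨hx, emb_Z.1⟩)).1),
    fun M h1 h2 => (core (M.comap φ.toMonoidHom) (fun g hg => (e1 g).1 (h2 hg)) fun g hg =>
      h1 ⟨(e3 g).2 hg.1, (e1 g).2 hg.2⟩).imp (fun k => le_antisymm (le_inf (fun g hg => ?_) h2) h1)
      fun k => le_antisymm h2 fun g hg => ?_⟩ <;> obtain ⟨g, rfl⟩ := φ.surjective g
  exacts [(e3 g).2 (k hg), k ((e1 g).1 hg)]

theorem exists_Φ {D : W9 → Matrix (Fin 9) (Fin 9) F} (h : Wy β9 D) :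
    ∃ Φ : Matrix W3 W3 F ≃ₐ[F] Matrix (Fin 9) (Fin 9) F, (∀ a, Φ (D9 F a) = D a) ∧ ∀ X, (Φ X).det = X.det := by
  let Ψ := reindexAlgEquiv F F (Fintype.equivFinOfCardEq (α := W3) (n := 9) (by simp))
  have w := wy9 F
  obtain ⟨g, hg⟩ := h.uniq' (D' := fun a => Ψ (D9 F a)) ⟨h.symp, by rw [w.zero, map_one], fun a b => by
    rw [← map_mul, w.mul, map_smul], h.card, h.ne⟩
  exact ⟨Ψ.trans (cj g), hg, fun X => (det_units_conj g _).trans (by simp [Ψ])⟩

theorem sl9_c6 {F : Type*} [Field F] [Fintype F] (hp : (Fintype.card F).Prime)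
    {R : Subgroup (GL (Fin 9) F)} (hR : Geo.IsLinearSymplecticTypeData 3 R) :
    Geo.IsMaximalIn (Geo.specialLinear (Fin 9) F) (Geo.subgroupNormalizer R ⊓ Geo.specialLinear (Fin 9) F) := by
  obtain ⟨_, _, -, -, ⟨-, -, hZ, -⟩ | ⟨h, -⟩ | ⟨h, -⟩⟩ := hR.field <;> try omega
  obtain ⟨_, D, h, e⟩ := H1.bridge F R hR.symplecticType hR.absIrred hZ
  obtain ⟨Φ, h1, h2⟩ := exists_Φ h
  have hF := H1.prime_field_cast hp
  simpa using max_of (G := ⊤) (U := ⊤) h e h1 h2 (by simp) trivial fun M => core (by simp) (h2 := Or.inl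
    fun h2 => by
      obtain ⟨n, hn⟩ := hF Om.om
      have := om_eq (F := F)
      rw [← Nat.div_add_mod n 2] at hn
      rcases Nat.mod_two_eq_zero_or_one n with k | k <;> simp [k, h2] at hn
      exacts [om_ne hn, om_ne_one hn]) (big := fun K hK _ g hg => H1.bigSL F hF K hK g (mem_SL.1 hg.2))

theorem herm_iff {F : Type*} [Field F] [StarRing F] {X : Matrix (Fin 9) (Fin 9) F} {c : F} :
    (∀ u v : Fin 9 → F, ∑ i, (X *ᵥ u) i * star ((X *ᵥ v) i) = c * ∑ i, u i * star (v i)) ↔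
      Xᴴ * X = c • 1 := by
  have : ∀ u v : Fin 9 → F, ∑ i, (X *ᵥ u) i * star ((X *ᵥ v) i) = star v ⬝ᵥ (Xᴴ * X) *ᵥ u := fun u v => by
    rw [← mulVec_mulVec, dotProduct_mulVec, ← star_mulVec, dotProduct_comm]; rfl
  simp only [this]
  refine ⟨fun h => ?_, fun h u v => by
    simp [h, smul_mulVec, dotProduct, mul_comm (star _), Finset.mul_sum, mul_assoc]⟩
  ext i j
  simpa [Pi.single_apply, one_apply, apply_ite star, eq_comm (a := j)] using h (Pi.single j 1) (Pi.single i 1)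

theorem su9_c6 {F : Type*} [Field F] [Fintype F] {q : ℕ} (hF : Fintype.card F = q ^ 2) (hp : q.Prime)
    (hq : q % 3 = 2) {R : Subgroup (GL (Fin 9) F)} (h1 : Geo.IsSymplecticTypeGroup 3 R)
    (h2 : Geo.ActsAbsolutelyIrreducibly (Geo.matrixSet R)) (h3 : R ≤ Geo.similarityGroup (hermForm 9 F q))
    (hZ : Nat.card (Subgroup.center R) = 3) :
    Geo.IsMaximalIn (GU 9 F q ⊓ Geo.specialLinear (Fin 9) F)
      (Geo.subgroupNormalizer R ⊓ (GU 9 F q ⊓ Geo.specialLinear (Fin 9) F)) := by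
  letI := U.powStar hF
  have := Fintype.ofFinite (U.F0 F)
  obtain ⟨_, D, h, e⟩ := H1.bridge F R h1 h2 hZ
  obtain ⟨Φ, p1, p2⟩ := exists_Φ h
  have w := wy9 F
  have hs : star (Om.om : F) = Om.om ^ 2 := by
    change _ ^ q = _
    rw [← Nat.div_add_mod q 3, pow_add, pow_mul, om_cube, one_pow, one_mul, hq]
  have hD : ∀ a, (D a)ᴴ = D (-a) := fun a => by
    obtain ⟨c, hc⟩ := h3 (inM_iff.1 ((e (h.g a)).2 ⟨a, 0, by simp⟩))
    have e1 : (D a)ᴴ * D a = (c : F) • 1 := herm_iff.1 hc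
    have e2 : (D a)ᴴ = (c : F) • D (-a) := by
      rw [← mul_one (D a)ᴴ, ← h.mul_neg a, ← mul_assoc, e1, smul_mul_assoc, one_mul]
    have e3 := congrArg (· ^ 3) e2
    simp only [← conjTranspose_pow, h.cube, smul_pow, conjTranspose_one] at e3
    obtain ⟨k, hk⟩ := exists_χ (h.inj one_ne_zero (a := 0) (b := 0) (by rwa [h.zero, one_smul])).2.symm
    have e4 := congrArg conjTranspose e1
    rw [conjTranspose_mul, conjTranspose_conjTranspose, e1, conjTranspose_smul, conjTranspose_one, hk,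
      star_χ hs, ← h.zero] at e4
    rw [e2, hk, (by decide : ∀ k : Z3, k = -k → k = 0) k (χ_inj (h.inj (χ_ne _) e4).2), χ_zero, one_smul]
  have hD9 : ∀ a, (D9 F a)ᴴ = D9 F (-a) := fun a => by
    rw [D9, conjTranspose_kronecker, D3_conjT hs, D3_conjT hs]; rfl
  have hΦ : ∀ X, (Φ X)ᴴ = Φ Xᴴ := fun X => by
    obtain ⟨c, rfl⟩ := w.span X
    simp [conjTranspose_sum, p1, hD, hD9]
  refine max_of (U := UG W3 F) h e p1 p2 (fun g => ?_) ?_ fun M => core (U := UG W3 F) (fun a j => ?_) (h2 := ?_)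
    (big := fun K hK hK' g hg => H1.bigSU F (H1.prime_field_cast (by
      rwa [← Nat.card_eq_fintype_card, U.card_F0 hF])) hs K hK (fun k hk => ?_) g hg.1 (mem_SL.1 hg.2))
  · refine Iff.trans ?_ ((herm_iff (X := Φ g) (c := 1)).trans ?_)
    · simp only [one_mul]; rfl
    · rw [hΦ, ← map_mul, one_smul, map_eq_one_iff _ Φ.injective]; rfl
  · change _ * _ = _
    rw [emb_Z_val, diagonal_conjTranspose, diagonal_mul_diagonal, diagonal_eq_one]
    ext P; by_cases k : P.2 = 0 <;> simp [k, star_χ hs, ← χ_add]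
  · refine Eq.trans ?_ (w.hh a j).inv_mul
    simp [w.hh_inv_val, ee_conjT hs hD9, hs]
  · refine hp.eq_two_or_odd'.symm.imp (fun k => H1.two_ne_zero_of_odd (hF ▸ k.pow)) fun k f c u hu e => ?_
    subst k
    have e1 : star c * c = 1 := mul_left_cancel₀ (ne_of_smul e) (by
      have := FiniteField.pow_card c
      rw [hF] at this
      change c * (c ^ 2 * c) = _
      linear_combination this)
    have e2 : (bd f : Matrix W3 W3 F)ᴴ * bd f = 1 := by
      rw [e, conjTranspose_smul, smul_mul_smul_comm, hu, e1, one_smul]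
    rw [bd_val, blockDiagonal_conjTranspose, ← blockDiagonal_mul, ← blockDiagonal_one] at e2
    exact dim3_two (fun _ => rfl) (congrFun (blockDiagonal_injective e2) 0)
  · obtain ⟨c, u, hu, e⟩ := hK' k hk
    exact ⟨star c * c, by rw [e, conjTranspose_smul, smul_mul_smul_comm, hu]⟩

end Cfsg.Agent.H5.T3
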