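import Cfsg.Agent.Orth.OO1
import Cfsg.Agent.H3.Gleason

/-! Elements fixing a unique coset. -/

set_option autoImplicit false
set_option linter.unusedVariables false

namespace Cfsg.Agent.H5.T3

open Subgroup

variable {G : Type*} [Group G] [Finite G] {H M L P : Subgroup G} {w u x y : G}

theorem pgroup_le {p : ℕ} [Fact p.Prime] (sc : ∀ g ∈ M, g * w * g⁻¹ ∈ H → g ∈ H) (hP : IsPGroup p P)
    (hM : P ≤ M) (hw : w ∈ P) (hH : w ∈ H) : P ≤ H := by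
  have := hP.isNilpotent
  by_contra hne
  obtain ⟨g, h1, h2⟩ := SetLike.exists_of_lt (normalizerCondition_of_isNilpotent (H.subgroupOf P)
    (lt_top_iff_ne_top.2 fun e => hne (subgroupOf_eq_top.1 e)))
  exact h2 (sc g (hM g.2) ((mem_normalizer_iff.1 h1 ⟨w, hw⟩).1 hH))

theorem pg_zpowers {p : ℕ} (h : w ^ p = 1) : IsPGroup p (zpowers w) := by
  rintro ⟨_, k, rfl⟩
  refine ⟨1, Subtype.ext ?_⟩
  change (w ^ k) ^ p ^ 1 = 1
  rw [pow_one, ← zpow_natCast, ← zpow_mul, mul_comm, zpow_mul, zpow_natCast, h, one_zpow]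

theorem sc_adjust {p : ℕ} [Fact p.Prime] (sc : ∀ g ∈ M, g * w * g⁻¹ ∈ H → g ∈ H) (hL : L ≤ M)
    (hw : w ∈ L) (hH : w ∈ H) (hwp : w ^ p = 1) (hu : u ∈ M) (hn : ∀ l ∈ L, u * l * u⁻¹ ∈ L) : ∃ l ∈ L, l * u ∈ H := by
  obtain ⟨P, hP, hw'⟩ := H3.exists_sylowIn_ge (p := p) Fact.out (K := L) (pg_zpowers hwp)
    (by simpa)
  obtain ⟨l, hl, e⟩ := hP.adjust Fact.out (x := u) fun a ha => hn a (hP.le ha)
  have hw2 := hw' (mem_zpowers w)
  exact ⟨l, hl, sc _ (mul_mem (hL hl) hu) (pgroup_le sc hP.pgroup (hP.le.trans hL) hw2 hH (e w hw2))⟩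

theorem bc (hc : Commute x y) (hx : x ^ 3 = 1) (hy : y ^ 3 = 1) (hxH : x ∈ H) (hyH : y ∈ H)
    (hf : ∀ i j : ℕ, ¬ (3 ∣ i ∧ 3 ∣ j) → ∀ c, c⁻¹ * (x ^ i * y ^ j) * c ∈ H → c ∈ H)
    (burn : ∀ s ∈ H, ∀ t ∈ H, (s * t * s⁻¹ * t⁻¹) ^ 4 = 1) : H = ⊤ := by
  have : Fact (Nat.Prime 3) := ⟨Nat.prime_three⟩
  obtain ⟨P, hP⟩ := (pg_zpowers hx).exists_le_sylow
  have hxP := hP (mem_zpowers x)
  have sc : ∀ g ∈ (⊤ : Subgroup G), g * x * g⁻¹ ∈ H → g ∈ H := fun g _ h =>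
    inv_mem_iff.1 (hf 1 0 (by decide) _ (by simpa using h))
  have hPH : (P : Subgroup G) ≤ H := pgroup_le sc P.2 le_top hxP hxH
  have hN : normalizer (P : Set G) ≤ centralizer (P : Set G) := fun s hs t ht => by
    have h1 := mul_mem ((mem_normalizer_iff.1 hs t).1 ht) (inv_mem ht)
    obtain ⟨n, hn⟩ := P.2 ⟨_, h1⟩
    have h2 := burn s (sc s trivial (hPH ((mem_normalizer_iff.1 hs x).1 hxP))) t (hPH ht)
    have h3 := pow_gcd_eq_one.2 ⟨congrArg Subtype.val hn, h2⟩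
    rw [Nat.Coprime.pow_left n (by decide), pow_one, mul_inv_eq_one, mul_inv_eq_iff_eq_mul] at h3
    exact h3.symm
  have h1 := MonoidHom.ker_transferSylow_isComplement' P hN
  have h2 := MonoidHom.not_dvd_card_ker_transferSylow P hN
  have h3 := (MonoidHom.normal_ker (MonoidHom.transferSylow P hN)).conj_mem
  generalize (MonoidHom.transferSylow P hN).ker = K at h1 h2 h3
  have h4 := Orth.OO.le_of_pp hc hx hy H K ⊥ hxH hyH (fun c hc => h3 c hc x) (fun c hc => h3 c hc y)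
    (by simp) (by simp) bot_le (by simp) (fun i j h c _ => hf i j h c) (Or.inl fun c hc _ e => by
      by_contra k
      exact h2 ((orderOf_eq_prime e k ▸ K.orderOf_dvd_natCard hc)))
  exact top_le_iff.1 (h1.sup_eq_top.ge.trans (sup_le h4 hPH))

theorem bc' {Y Z : Subgroup G} (hZ : ∀ z ∈ Z, ∀ g, g * z = z * g) (hZH : Z ≤ H)
    (hc : x * y * x⁻¹ * y⁻¹ ∈ Z) (hx : x ^ 3 = 1) (hy : y ^ 3 = 1) (hxH : x ∈ H) (hyH : y ∈ H)
    (hxY : x ∈ Y) (hyY : y ∈ Y)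
    (hf : ∀ i j : ℕ, ¬ (3 ∣ i ∧ 3 ∣ j) → ∀ c ∈ Y, c⁻¹ * (x ^ i * y ^ j) * c ∈ H → c ∈ H)
    (burn : ∀ s ∈ Y, s ∈ H → ∀ t ∈ Y, t ∈ H → (s * t * s⁻¹ * t⁻¹) ^ 4 ∈ Z) : Y ≤ H := by
  haveI : (Z.subgroupOf Y).Normal := ⟨fun z hz u => by
    rw [mem_subgroupOf] at hz ⊢
    simpa [hZ _ hz] using hz⟩
  let φ := QuotientGroup.mk' (Z.subgroupOf Y)
  have e : ∀ c : Y, φ c ∈ (H.subgroupOf Y).map φ ↔ (c : G) ∈ H := fun c => by
    rw [← mem_comap, comap_map_eq_self (by simpa [φ] using subgroupOf_mono _ hZH), mem_subgroupOf]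
  have e1 : ∀ c : Y, φ c = 1 ↔ (c : G) ∈ Z := fun c => QuotientGroup.eq_one_iff c
  have := bc (H := (H.subgroupOf Y).map φ) (x := φ ⟨x, hxY⟩) (y := φ ⟨y, hyY⟩) (by
      rw [← commutatorElement_eq_one_iff_commute, ← map_commutatorElement, e1]
      exact hc)
    (by rw [← map_pow, e1]; simp [hx, one_mem]) (by rw [← map_pow, e1]; simp [hy, one_mem])
    ((e _).2 hxH) ((e _).2 hyH) (fun i j h c hc => by
      obtain ⟨c, rfl⟩ := QuotientGroup.mk'_surjective _ c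
      simp only [← map_pow φ, ← map_inv φ, ← map_mul φ] at hc
      exact (e _).2 (hf i j h c c.2 ((e _).1 hc))) (by
      rintro _ ⟨s, hs, rfl⟩ _ ⟨t, ht, rfl⟩
      simp only [← map_pow φ, ← map_inv φ, ← map_mul φ, e1]
      exact burn s s.2 hs t t.2 ht)
  exact fun c hc => (e ⟨c, hc⟩).1 (this ▸ trivial)

end Cfsg.Agent.H5.T3
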