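import Cfsg.Agent.H5.T3.StepC

/-! Overgroups of the normaliser of `3^{1+4}`. -/

set_option autoImplicit false
set_option linter.unusedSimpArgs false
set_option linter.unusedSectionVars false
set_option linter.unusedVariables false

namespace Cfsg.Agent.H5.T3

open Matrix Cfsg.Agent.H9.Sp Cfsg.Agent.H7 Module
open scoped Kronecker

theorem exists_pair {S : W9 ≃ₗ[Z3] W9} (h : S ∈ Sp β9) (h2 : ∀ w, S (S w) = w) {ε : Z3} (hε : ε * ε = 1)
    {w : W9} (hw : S w ≠ -ε • w) : ∃ p q, S p = ε • p ∧ S q = ε • q ∧ β9 q p = 1 := by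
  have e : ∀ w, S (S w + ε • w) = ε • (S w + ε • w) := fun w => by
    rw [map_add, map_smul, h2, smul_add, smul_smul, hε, one_smul, add_comm]
  obtain ⟨x, hx⟩ := symp9.exists_one (z := S w + ε • w) fun k => hw (by rwa [neg_smul, ← add_eq_zero_iff_eq_neg])
  refine ⟨-ε • (S x + ε • x), _, by rw [map_smul, e, smul_comm], e w, ?_⟩
  have := h (S w + ε • w) (S x)
  rw [h2, e, LinearMap.map_smul₂, hx] at this
  generalize S w + ε • w = y at *
  simp only [map_smul, map_add, hx, ← this, smul_eq_mul]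
  clear * - hε; revert ε; decide

theorem inv_class {S : W9 ≃ₗ[Z3] W9} (h : S ∈ Sp β9) (h2 : ∀ w, S (S w) = w) :
    (∀ w, S w = w) ∨ (∀ w, S w = -w) ∨ ∃ P ∈ Sp β9, ∀ a : W9, S (P a) = P (a.1, -a.2) := by
  by_contra! k
  obtain ⟨⟨u, hu⟩, ⟨w, hw⟩, k⟩ := k
  obtain ⟨p, q, p1, q1, e1⟩ := exists_pair h h2 (ε := 1) rfl (w := w) (by simpa)
  obtain ⟨r, s, r1, s1, e2⟩ := exists_pair h h2 (ε := -1) rfl (w := u) (by simpa)
  simp only [one_smul, neg_smul] at p1 q1 r1 s1
  have o : ∀ x y, S x = x → S y = -y → β9 x y = 0 := fun x y hx hy => by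
    have := h x y
    rw [hx, hy, map_neg] at this
    revert this; generalize β9 x y = z; revert z; decide
  let L : W9 →ₗ[Z3] W9 := ((LinearMap.toSpanSingleton Z3 W9 p).coprod (LinearMap.toSpanSingleton Z3 W9 q)).coprod
    ((LinearMap.toSpanSingleton Z3 W9 r).coprod (LinearMap.toSpanSingleton Z3 W9 s))
  have hL : ∀ a b, β9 (L a) (L b) = β9 a b := fun a b => by
    simp only [L, LinearMap.coprod_apply, LinearMap.toSpanSingleton_apply, map_add, map_smul,
      LinearMap.add_apply, LinearMap.smul_apply, symp9.alt, symp9.skew p q, symp9.skew r s, symp9.skew r p,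
      symp9.skew r q, symp9.skew s p, symp9.skew s q, e1, e2, o _ _ p1 r1, o _ _ p1 s1, o _ _ q1 r1,
      o _ _ q1 s1, β9_apply a b, β3_apply, smul_eq_mul]
    ring
  have i : Function.Injective L := (injective_iff_map_eq_zero L).2 fun a ha =>
    symp9.nd a fun x => by rw [← hL, ha, map_zero]
  obtain ⟨a, ha⟩ := k (LinearEquiv.ofBijective L ⟨i, Finite.surjective_of_injective i⟩) hL
  exact ha (show S (L a) = L _ by simp [L, p1, q1, r1, s1])

variable {F : Type*} [Field F] [Om F]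

local notation "ω" => (Om.om : F)
local notation "N3" => Wy.N (wy3 F)
local notation "N9" => Wy.N (wy9 F)
local notation "g9" => Wy.g (wy9 F)
local notation "ac9" => Wy.ac (wy9 F)
local notation "σ" => ((sg F : GL W3 F) : Matrix W3 W3 F)

theorem eq_zero_of_scal {c : F} (hc : c ≠ 0) {a : W9} (h : IsScal (c • D9 F a)) : a = 0 :=
  (wy9 F).eq_zero_of_scal (by simpa only [inv_smul_smul₀ hc] using h.smul c⁻¹)

theorem ac_sg (a : W9) : ac9 (sg F) a = (a.1, -a.2) := (wy9 F).ac_eq' sg_mem (cj_sg a)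

theorem class_sg {t : GL W3 F} (ht : t ∈ N9) (h2 : IsScal (t * t).1) (h1 : ¬ ∀ w, ac9 t w = w)
    (h3 : ¬ ∀ w, ac9 t w = -w) : ∃ n ∈ N9, ∃ c : F, cj n t = c • σ := by
  have h := wy9 F
  obtain ⟨P, hP, e⟩ := ((inv_class (h.ac_Sp ht) fun w => by
    rw [← LinearEquiv.mul_apply, ← h.ac_mul ht ht, h.ac_of_scal h2]; rfl).resolve_left h1).resolve_left h3
  obtain ⟨n, hn, e1⟩ := h.surj hP
  have e2 : h.ac n = P := LinearEquiv.ext fun a => h.ac_eq' hn (e1 a)
  have m := mul_mem (mul_mem (inv_mem hn) ht) (inv_mem (inv_mem hn))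
  obtain ⟨c, w, e3⟩ := h.ker (mul_mem m sg_mem) (LinearEquiv.ext fun a => by
    rw [h.ac_mul m sg_mem, h.ac_conj (inv_mem hn) ht, h.ac_inv hn, e2]
    simp [ac_sg, e])
  have e4 : cj n⁻¹ t = c • D9 F w * σ := by
    rw [← e3, cj_val, ← Units.val_mul, mul_assoc _ (sg F), sg_sq, mul_one]
  have e5 := (isScal_cj_iff n⁻¹ _).2 h2
  rw [Units.val_mul, map_mul, e4, mul_assoc, ← mul_assoc σ, mul_smul_comm, mul_eq_of_cj (cj_sg w),
    smul_mul_assoc c (_ * _), mul_assoc, ← Units.val_mul, sg_sq, Units.val_one, mul_one, smul_mul_smul_comm, h.mul,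
    smul_smul] at e5
  have e6 := congrArg Prod.fst (eq_zero_of_scal (by simp [χ_ne, ne_of_smul e3]) e5)
  have e7 : (w.1, -w.2) = -w := Prod.ext ((by decide : ∀ b : W3, b + b = 0 → b = -b) _ e6) rfl
  refine ⟨_, mul_mem (h.g_mem w) (inv_mem hn), c, ?_⟩
  rw [cj_mul, e4, cj_apply, h.g_inv, h.g_val, h.g_val, mul_assoc, mul_assoc, ← e7, mul_eq_of_cj (cj_sg _)]
  simp [← mul_assoc, h.mul_self, h.neg_mul, h.mul_neg]

/-- the involution inverting the Weyl system -/
abbrev rh (F : Type*) [Field F] : GL W3 F := kr (π3 F) (π3 F)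

local notation "ρ" => ((rh F : GL W3 F) : Matrix W3 W3 F)

theorem rh_mem : rh F ∈ N9 := kr_mem π_mem π_mem

theorem cj_rh (a : W9) : cj (rh F) (D9 F a) = D9 F (-a) := by rw [D9, cj_kr, cj_π, cj_π]; rfl

theorem rh_sq : rh F * rh F = 1 := Units.ext (by
  rw [Units.val_mul, kr_val, ← mul_kronecker_mul, ← Units.val_mul, π_sq]; simp)

theorem trace_π : (π3 F : Matrix Z3 Z3 F).trace = 1 := by
  rw [trace, sum3]; simp (decide := true) [pm_apply]

theorem trace_sg : (σ).trace = 3 := by simp [sg_val, trace_kronecker, trace_π]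

theorem trace_rh : (ρ).trace = 1 := by simp [kr_val, trace_kronecker, trace_π]

theorem sg_rank (h2 : (2 : F) = 0) : ∃ Y : Matrix W3 Z3 F, σ - 1 = Y * Yᵀ := by
  refine ⟨of fun P j => if P.1 = j ∧ P.2 ≠ 0 then 1 else 0, ?_⟩
  ext ⟨i, P⟩ ⟨j, Q⟩
  simp only [sg_val, mul_apply, one_apply, pm_apply, ite_and, Matrix.sub_apply, kroneckerMap_apply, of_apply,
    transpose_apply, ite_mul, zero_mul, Finset.sum_ite_eq, Finset.mem_univ, if_true, Prod.mk.injEq,
    eq_comm (a := j)]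
  by_cases e : i = j
  · rcases z3 P with rfl | rfl | rfl <;> rcases z3 Q with rfl | rfl | rfl <;>
      simp (decide := true) [e] <;> grind
  · simp [e]

theorem rh_rank :
    (ρ - 1).submatrix ![(0, 1), (1, 0), (1, 1), (1, 2)] ![(0, 2), (2, 0), (2, 2), (2, 1)] = 1 := by
  ext i j
  fin_cases i <;> fin_cases j <;> simp (decide := true) [kr_val, pm_apply, one_apply]

theorem not_fac {X : Matrix (Fin 4) Z3 F} {Y : Matrix Z3 (Fin 4) F} (h : X * Y = 1) : False := by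
  have := (rank_mul_le_left X Y).trans (rank_le_card_width X)
  rw [h] at this
  simp at this

theorem non_conj (g : GL W3 F) (c : F) : cj g σ ≠ c • ρ := fun e => by
  have e1 := congrArg trace e
  rw [trace_cj, trace_smul, trace_sg, trace_rh, smul_eq_mul, mul_one] at e1
  have e2 : cj g σ * cj g σ = c • ρ * c • ρ := by rw [e]
  rw [← map_mul, ← Units.val_mul, sg_sq, smul_mul_smul_comm, ← Units.val_mul, rh_sq, Units.val_one, map_one] at e2
  have e3 := congrFun (congrFun e2 0) 0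
  rw [Matrix.smul_apply, one_apply_eq, smul_eq_mul, mul_one, ← e1] at e3
  have h2 : (2 : F) = 0 := eq_zero_of_pow_eq_zero (n := 3) (by linear_combination -e3)
  rw [← e1, show (3 : F) = 1 by linear_combination h2, one_smul] at e
  obtain ⟨Y, e4⟩ := sg_rank h2
  have e5 := rh_rank (F := F)
  have e6 : ρ - 1 = (g.1 * Y) * (Yᵀ * g⁻¹.1) := by
    rw [← e, Matrix.mul_assoc, ← Matrix.mul_assoc Y, ← e4, ← mul_assoc, ← cj_apply, map_sub, map_one]
  rw [e6, submatrix_mul _ _ _ id _ Function.bijective_id] at e5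
  exact not_fac e5

theorem class_rh {t : GL W3 F} (ht : t ∈ N9) (h : ∀ w, ac9 t w = -w) : ∃ (n : GL W3 F) (c : F), cj n t = c • ρ := by
  have w := wy9 F
  obtain ⟨c, a, e⟩ := w.ker (mul_mem ht rh_mem) (LinearEquiv.ext fun a => by
    simp [w.ac_mul ht rh_mem, w.ac_eq' rh_mem (cj_rh a), h])
  refine ⟨g9 a, c, ?_⟩
  rw [show t.1 = c • D9 F a * ρ by rw [← e, ← Units.val_mul, mul_assoc, rh_sq, mul_one], cj_apply, w.g_inv,
    w.g_val, w.g_val, mul_assoc, mul_assoc, mul_eq_of_cj (cj_rh _)]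
  simp [← mul_assoc, w.mul_self, w.neg_mul, w.mul_neg]

theorem scal_of_ac {t : GL W3 F} (ht : t ∈ N9) (h2 : IsScal (t * t).1) (h : ∀ w, ac9 t w = w) : IsScal t.1 := by
  have w := wy9 F
  obtain ⟨c, a, e⟩ := w.ker ht (LinearEquiv.ext h)
  rw [Units.val_mul, e, smul_mul_smul_comm, w.mul_self] at h2
  have := eq_zero_of_scal (by simp [ne_of_smul e]) h2
  exact ⟨c, by rw [e, neg_eq_zero.1 this, w.zero]⟩

variable [Finite F] {M : Subgroup (GL W3 F)} (H : Hy M) {g : GL W3 F}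
include H

theorem Hy.sc_sg (hg : g ∈ M) (e : g * sg F * g⁻¹ ∈ N9) : g ∈ N9 := by
  have e1 : IsScal (g * sg F * g⁻¹ * (g * sg F * g⁻¹)).1 := by
    rw [conj_mul, sg_sq]; simpa using isScal_one
  obtain ⟨n, hn, c, e2⟩ := class_sg e e1 (fun k => by
    have := (wy9 F).ac_of_scal ((isScal_cj_iff g _).1 (cj_val g _ ▸ scal_of_ac e e1 k))
    simpa (decide := true) [this] using ac_sg (F := F) (0, 0, 1)) fun k => by
      obtain ⟨n, c, k⟩ := class_rh e k
      exact non_conj (n * g) c (by rw [cj_mul, cj_val g, k])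
  rw [← cj_val, ← cj_mul] at e2
  have e3 := congrArg trace e2
  rw [trace_cj, trace_smul, trace_sg, smul_eq_mul, eq_comm, mul_eq_right₀ h3] at e3
  rw [e3, one_smul] at e2
  exact (mul_mem_cancel_left hn).1 (H.cent_sg (mul_mem (H.le hn) hg) (mul_eq_of_cj e2))

theorem Hy.conj_rh (hg : g ∈ M) : g * rh F * g⁻¹ ∈ N9 := by
  have w := wy9 F
  obtain ⟨u, hu⟩ : ∃ u, u = g * rh F * g⁻¹ := ⟨_, rfl⟩
  have u1 : u ∈ M := hu ▸ mul_mem (mul_mem hg (H.le rh_mem)) (inv_mem hg)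
  have u2 : u * u = 1 := by rw [hu, conj_mul, rh_sq]; simp
  obtain ⟨r, hr⟩ : ∃ r, r = sg F * u := ⟨_, rfl⟩
  have r1 : r ∈ M := hr ▸ mul_mem (H.le sg_mem) u1
  have r2 : ∀ j : ℕ, sg F * r ^ j * (sg F)⁻¹ = (r ^ j)⁻¹ := fun j => by
    rw [← conj_pow, ← inv_pow, hr, ← mul_assoc, sg_sq, one_mul, _root_.mul_inv_rev, inv_eq_of_mul_eq_one_right u2]
  have r3 : ∀ j : ℕ, u * r ^ j * u⁻¹ = (r ^ j)⁻¹ := fun j => by
    rw [← conj_pow, ← inv_pow, hr, mul_assoc, mul_inv_cancel_right, _root_.mul_inv_rev,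
      inv_eq_of_mul_eq_one_right u2, inv_eq_of_mul_eq_one_right sg_sq]
  have key : ∀ k, 0 < k → r ^ k ∈ N9 → ∃ j, r ^ (2 * j + 1) ∈ N9 := fun k => by
    induction k using Nat.strong_induction_on with
    | _ k ih =>
      intro k0 hk
      obtain ⟨j, rfl | rfl⟩ := k.even_or_odd'
      · refine ih j (by omega) (by omega) (H.sc_sg (pow_mem r1 j) ?_)
        rw [← r2, two_mul, pow_add] at *
        convert mul_mem hk sg_mem using 1
        rw [mul_assoc, mul_assoc, mul_assoc, mul_right_inj, ← mul_assoc, ← mul_assoc, sg_sq, one_mul,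
          inv_eq_of_mul_eq_one_right sg_sq]
      · exact ⟨j, hk⟩
  obtain ⟨j, hj⟩ := key _ (orderOf_pos r) (by rw [pow_orderOf_eq_one]; exact one_mem _)
  have v1 := mul_mem sg_mem hj
  have v2 : sg F * r ^ (2 * j + 1) = (r ^ j)⁻¹ * g * rh F * ((r ^ j)⁻¹ * g)⁻¹ := by
    have : sg F * r = u := by rw [hr, ← mul_assoc, sg_sq, one_mul]
    rw [two_mul, add_assoc, pow_add, pow_succ', ← mul_assoc, mul_inv_eq_iff_eq_mul.1 (r2 j), mul_assoc,
      ← mul_assoc (sg F), this, hu]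
    group
  have v3 : IsScal (sg F * r ^ (2 * j + 1) * (sg F * r ^ (2 * j + 1))).1 := by
    rw [v2, conj_mul, rh_sq]; simpa using isScal_one
  have v4 : ∀ a, ac9 (sg F * r ^ (2 * j + 1)) a = -a := by
    by_contra k
    obtain ⟨n, -, c, e⟩ := class_sg v1 v3 (fun k => by
      have := scal_of_ac v1 v3 k
      rw [v2, ← cj_val, isScal_cj_iff] at this
      replace this := w.ac_of_scal this
      simpa (decide := true) [this] using w.ac_eq' rh_mem (cj_rh (0, 0, 1))) k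
    rw [v2, ← cj_val, ← cj_mul] at e
    have hc : c ≠ 0 := ne_of_smul ((cj_val _ _).symm.trans e)
    exact non_conj (n * ((r ^ j)⁻¹ * g))⁻¹ c⁻¹ (by rw [eq_inv_smul_iff₀ hc, ← map_smul, ← e, cj_inv_cj])
  have z := r3 ((2 * j + 1) * 3)
  rw [pow_mul] at z
  generalize r ^ (2 * j + 1) = y at hj v1 v4 z
  have y1 : ∀ a, ac9 y a = (-a.1, a.2) := fun a => by
    have := congrArg (ac9 (sg F)) (v4 a)
    rw [w.ac_mul sg_mem hj, LinearEquiv.mul_apply] at this
    simpa [ac_sg] using this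
  have y3 : ∀ a, ac9 (y ^ 3) a = (-a.1, a.2) := fun a => by
    rw [w.ac_pow hj]; simp [pow_succ, y1]
  obtain ⟨c, a, y2⟩ := w.ker (mul_mem hj hj) (LinearEquiv.ext fun a => by simp [w.ac_mul hj hj, y1])
  obtain ⟨n, hn, d, e⟩ := class_sg (pow_mem hj 3) ⟨c ^ 3, by
      rw [← (Commute.refl y).mul_pow, Units.val_pow_eq_pow_val, y2, smul_pow, w.cube]⟩
    (fun k => by simpa (decide := true) [y3] using k ((0, 1), 0))
    (fun k => by simpa (decide := true) [y3] using k (0, 0, 1))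
  have hd : d ≠ 0 := ne_of_smul ((cj_val _ _).symm.trans e)
  have := H.sc_sg (mul_mem (mul_mem (H.le hn) u1) (inv_mem (H.le hn))) (w.mem_of_smul (c := d⁻¹)
    (by rw [eq_inv_smul_iff₀ hd, ← cj_val, ← map_smul, ← e, cj_val, cj_val, ← z]; congr 1; group)
    (mul_mem (mul_mem hn (inv_mem (pow_mem hj 3))) (inv_mem hn)))
  rwa [mul_mem_cancel_right (inv_mem hn), mul_mem_cancel_left hn, hu] at this

theorem Hy.le_N : M ≤ N9 := fun g hg => by
  have w := wy9 F
  have := mul_mem (H.conj_rh (mul_mem hg (H.le (w.g_mem (0, 0, 1))))) (H.conj_rh hg)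
  refine H.sc hg (a := -(0, 0, 1)) (by decide) ?_
  convert this using 1
  have : g9 (-(0, 0, 1)) = g9 (0, 0, 1) * (rh F * (g9 (0, 0, 1))⁻¹ * (rh F)⁻¹) := Units.ext (by
    rw [Units.val_mul, ← cj_val, w.g_inv, w.g_val, w.g_val, cj_rh, neg_neg, w.mul_self])
  rw [this, inv_eq_of_mul_eq_one_right rh_sq]; group

omit H in
/-- the dichotomy -/
theorem main (hN : N9 ≤ M) (h : (2 : F) ≠ 0 ∨ HE M) : M ≤ N9 ∨ HasTv (M.comap emb) :=
  or_iff_not_imp_right.2 fun hT => Hy.le_N ⟨hN, fun g hg =>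
    cent_x hN (h.elim (fun h2 => he_of h2 hN hT) id) hT hg⟩

end Cfsg.Agent.H5.T3
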