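import Cfsg.Agent.H5.T3.Weyl

/-! The normaliser of a Weyl system. -/

set_option autoImplicit false
set_option linter.unusedSimpArgs false
set_option linter.unusedSectionVars false
set_option linter.unusedVariables false

namespace Cfsg.Agent.H5.T3

open Matrix Cfsg.Agent.H9.Sp Cfsg.Agent.H7

variable {F : Type*} [Field F] [Om F]

local notation "ω" => (Om.om : F)

variable {W : Type} [AddCommGroup W] [Module Z3 W] [Fintype W] [DecidableEq W]
  {ι : Type} [Fintype ι] [DecidableEq ι]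

/-- scalar multiple of an invertible matrix -/
def smulGL (c : F) (hc : c ≠ 0) (g : GL ι F) : GL ι F := scalGL ι (Units.mk0 c hc) * g

@[simp] theorem smulGL_val (c : F) (hc : c ≠ 0) (g : GL ι F) :
    (smulGL c hc g : Matrix ι ι F) = c • (g : Matrix ι ι F) := by simp [smulGL]

theorem cj_of_smul {g k : GL ι F} {c : F} (e : (g : Matrix ι ι F) = c • (k : Matrix ι ι F))
    (X : Matrix ι ι F) : cj g X = cj k X :=
  cj_eq_of (by rw [e, smul_mul_assoc, mul_smul_comm, cj_mul_val])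

theorem cj_of_scal {g : GL ι F} (e : IsScal (g : Matrix ι ι F)) (X : Matrix ι ι F) : cj g X = X :=
  cj_eq_of (e.comm X)

theorem ne_of_smul [Nonempty ι] {g : GL ι F} {c : F} {X : Matrix ι ι F}
    (e : (g : Matrix ι ι F) = c • X) : c ≠ 0 := by
  rintro rfl
  exact g.ne_zero (by rw [e, zero_smul])

namespace Wy

variable {β : W →ₗ[Z3] W →ₗ[Z3] Z3} {D : W → Matrix ι ι F} (h : Wy β D)
include h

theorem D_ne (a : W) : D a ≠ 0 := have := h.nonempty; (h.g a).ne_zero

theorem exists_χ {g : GL ι F} {a b : W} {c : F} (e : cj g (D a) = c • D b) : ∃ k, c = χ F k := by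
  have := congrArg (· ^ 3) e
  simp only [← map_pow, h.cube, smul_pow, map_one] at this
  exact T3.exists_χ (h.inj one_ne_zero (a := 0) (b := 0) (by rwa [h.zero, one_smul])).2.symm

theorem cj_neg {g : GL ι F} {a b : W} {k : Z3} (e : cj g (D a) = χ F k • D b) :
    cj g (D (-a)) = χ F (-k) • D (-b) := by
  rw [← h.mul_self, map_mul, e, smul_mul_smul_comm, ← χ_add, h.mul_self, add_self_eq (W := Z3)]

/-- the normaliser -/
def N : Subgroup (GL ι F) where
  carrier := {g | ∀ a, ∃ b k, cj g (D a) = χ F k • D b}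
  one_mem' a := ⟨a, 0, by simp⟩
  mul_mem' {g k} hg hk a := by
    obtain ⟨b, i, e⟩ := hk a
    obtain ⟨c, j, e'⟩ := hg b
    exact ⟨c, i + j, by rw [cj_mul, e, map_smul, e', smul_smul, χ_add]⟩
  inv_mem' {g} hg a := by
    choose f k e using hg
    have : Function.Injective f := fun a b hab =>
      (h.inj (χ_ne (F := F) (k b)) (d := χ F (k a)) ((cj g).injective (by
        rw [map_smul, map_smul, e, e, hab, smul_comm]))).1
    obtain ⟨b, rfl⟩ := Finite.surjective_of_injective this a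
    exact ⟨b, -k b, (cj g).injective (by
      rw [cj_cj_inv, map_smul, e, smul_smul, χ_neg_mul, one_smul])⟩

theorem mem_N {g : GL ι F} (hg : ∀ a, ∃ (b : W) (c : F), cj g (D a) = c • D b) : g ∈ h.N := fun a => by
  obtain ⟨b, c, e⟩ := hg a
  obtain ⟨k, rfl⟩ := h.exists_χ e
  exact ⟨b, k, e⟩

theorem g_mem (a : W) : h.g a ∈ h.N := fun b => ⟨b, _, h.cj_g a b⟩

theorem mem_of_smul {g k : GL ι F} {c : F} (e : (g : Matrix ι ι F) = c • (k : Matrix ι ι F))
    (hk : k ∈ h.N) : g ∈ h.N := fun a => by rw [cj_of_smul e]; exact hk a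

theorem mem_of_D {g : GL ι F} {c : F} {a : W} (e : (g : Matrix ι ι F) = c • D a) : g ∈ h.N :=
  h.mem_of_smul (k := h.g a) e (h.g_mem a)

theorem mem_of_scal {g : GL ι F} (e : IsScal (g : Matrix ι ι F)) : g ∈ h.N := fun a =>
  ⟨a, 0, by rw [cj_of_scal e, χ_zero, one_smul]⟩

theorem exists_ac {g : GL ι F} (hg : g ∈ h.N) :
    ∃ s : W ≃ₗ[Z3] W, ∀ a, ∃ k, cj g (D a) = χ F k • D (s a) := by
  choose f k e using hg
  have hadd : ∀ a b, f (a + b) = f a + f b := fun a b => by
    have := congrArg (cj g) (h.mul a b)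
    rw [map_mul, map_smul, e, e, e, smul_mul_smul_comm, h.mul, smul_smul, smul_smul] at this
    exact (h.inj (by simp [χ_ne]) this).1.symm
  let L : W →ₗ[Z3] W := (AddMonoidHom.mk' f hadd).toZModLinearMap 3
  have : Function.Injective f := fun a b hab =>
    (h.inj (χ_ne (F := F) (k b)) (d := χ F (k a)) ((cj g).injective (by
      rw [map_smul, map_smul, e, e, hab, smul_comm]))).1
  exact ⟨LinearEquiv.ofBijective L ⟨this, Finite.surjective_of_injective this⟩, fun a => ⟨_, e a⟩⟩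

open Classical in
/-- the action of the normaliser on the symplectic space -/
noncomputable def ac (g : GL ι F) : W ≃ₗ[Z3] W := if hg : g ∈ h.N then (h.exists_ac hg).choose else 1

theorem ac_spec {g : GL ι F} (hg : g ∈ h.N) (a : W) : ∃ k, cj g (D a) = χ F k • D (h.ac g a) := by
  rw [ac, dif_pos hg]; exact (h.exists_ac hg).choose_spec a

theorem ac_eq {g : GL ι F} (hg : g ∈ h.N) {a b : W} {c : F} (e : cj g (D a) = c • D b) :
    h.ac g a = b := by
  obtain ⟨k, e'⟩ := h.ac_spec hg a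
  exact (h.inj (χ_ne k) (e'.symm.trans e)).1

theorem ac_eq' {g : GL ι F} (hg : g ∈ h.N) {a b : W} (e : cj g (D a) = D b) : h.ac g a = b :=
  h.ac_eq hg (c := 1) (by rw [e, one_smul])

theorem ac_mul {g k : GL ι F} (hg : g ∈ h.N) (hk : k ∈ h.N) : h.ac (g * k) = h.ac g * h.ac k :=
  LinearEquiv.ext fun a => by
    obtain ⟨i, e⟩ := h.ac_spec hk a
    obtain ⟨j, e'⟩ := h.ac_spec hg (h.ac k a)
    exact h.ac_eq (mul_mem hg hk) (by rw [cj_mul, e, map_smul, e', smul_smul]; rfl)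

theorem ac_of_smul {g k : GL ι F} {c : F} (e : (g : Matrix ι ι F) = c • (k : Matrix ι ι F))
    (hk : k ∈ h.N) : h.ac g = h.ac k := LinearEquiv.ext fun a => by
  obtain ⟨i, e'⟩ := h.ac_spec hk a
  exact h.ac_eq (h.mem_of_smul e hk) (by rw [cj_of_smul e, e'])

theorem ac_g (a : W) : h.ac (h.g a) = 1 :=
  LinearEquiv.ext fun b => h.ac_eq (h.g_mem a) (h.cj_g a b)

theorem ac_of_D {g : GL ι F} {c : F} {a : W} (e : (g : Matrix ι ι F) = c • D a) : h.ac g = 1 :=
  (h.ac_of_smul (k := h.g a) e (h.g_mem a)).trans (h.ac_g a)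

theorem ac_of_scal {g : GL ι F} (e : IsScal (g : Matrix ι ι F)) : h.ac g = 1 :=
  let ⟨c, e⟩ := e; h.ac_of_D (a := 0) (by rw [e, h.zero])

theorem ac_one : h.ac 1 = 1 := h.ac_of_scal isScal_one

theorem ac_inv {g : GL ι F} (hg : g ∈ h.N) : h.ac g⁻¹ = (h.ac g)⁻¹ :=
  eq_inv_of_mul_eq_one_left (by rw [← h.ac_mul (inv_mem hg) hg, inv_mul_cancel, h.ac_one])

theorem ac_pow {g : GL ι F} (hg : g ∈ h.N) (n : ℕ) : h.ac (g ^ n) = h.ac g ^ n := by
  induction n with
  | zero => simp [h.ac_one]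
  | succ n ih => rw [pow_succ, h.ac_mul (pow_mem hg n) hg, ih, pow_succ]

theorem ac_conj {g k : GL ι F} (hg : g ∈ h.N) (hk : k ∈ h.N) :
    h.ac (g * k * g⁻¹) = h.ac g * h.ac k * (h.ac g)⁻¹ := by
  rw [h.ac_mul (mul_mem hg hk) (inv_mem hg), h.ac_mul hg hk, h.ac_inv hg]

theorem ac_Sp {g : GL ι F} (hg : g ∈ h.N) : h.ac g ∈ Sp β := fun a b => by
  obtain ⟨i, e⟩ := h.ac_spec hg a
  obtain ⟨j, e'⟩ := h.ac_spec hg b
  have := congrArg (cj g) (h.cj_g a b)
  rw [cj_apply (h.g a), h.g_inv, map_mul, map_mul, g_val, g_val, h.cj_neg e, e, e', map_smul, e'] at this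
  have e2 := h.cj_g (h.ac g a) (h.ac g b)
  rw [cj_apply, h.g_inv, g_val, g_val] at e2
  simp only [smul_mul_assoc, mul_smul_comm, e2, smul_smul] at this
  have e3 := (h.inj (by simp [χ_ne]) this).2
  simp only [← χ_add] at e3
  rw [h.symp.skew, h.symp.skew a]
  linear_combination -χ_inj e3

theorem ker {g : GL ι F} (hg : g ∈ h.N) (e : h.ac g = 1) :
    ∃ (c : F) (a : W), (g : Matrix ι ι F) = c • D a := by
  have := h.nonempty
  obtain ⟨b, hb⟩ : ∃ b, ((g : Matrix ι ι F) * D (-b)).trace ≠ 0 := by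
    by_contra! k
    exact g.ne_zero (by rw [h.expand g]; simp [k])
  have hu := mul_mem hg (h.g_mem (-b))
  obtain ⟨c, hc⟩ := h.cent (X := (g * h.g (-b) : GL ι F)) fun a => by
    obtain ⟨k, hk⟩ := h.ac_spec hu a
    rw [h.ac_mul hg (h.g_mem _), e, h.ac_g, mul_one, LinearEquiv.coe_one, id] at hk
    have e1 := mul_eq_of_cj hk
    have e2 := congrArg (fun X => (D (-a) * X).trace) e1
    simp only [smul_mul_assoc, mul_smul_comm, trace_smul, ← mul_assoc, h.neg_mul, one_mul] at e2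
    rw [trace_mul_cycle, h.mul_neg, one_mul, smul_eq_mul] at e2
    rw [e1, (mul_eq_right₀ hb).1 e2.symm, one_smul]
  refine ⟨c, b, ?_⟩
  rw [← mul_one (g : Matrix ι ι F), ← h.neg_mul b, ← mul_assoc]
  exact (congrArg (· * D b) hc).trans (by simp)

theorem surj {s : W ≃ₗ[Z3] W} (hs : s ∈ Sp β) : ∃ g ∈ h.N, ∀ a, cj g (D a) = D (s a) := by
  obtain ⟨g, hg⟩ := (h.comp hs).uniq' h
  exact ⟨g, fun a => ⟨_, 0, by rw [hg, χ_zero, one_smul]⟩, hg⟩

theorem trans {a b : W} (ha : a ≠ 0) (hb : b ≠ 0) : ∃ g ∈ h.N, cj g (D a) = D b := by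
  obtain ⟨s, hs, rfl⟩ := Sp_trans h.symp ha hb
  obtain ⟨g, h1, h2⟩ := h.surj hs
  exact ⟨g, h1, h2 a⟩

theorem trace_ne_zero {g : GL ι F} (hg : g ∈ h.N) (e : ∀ a, h.ac g a = a → cj g (D a) = D a) :
    (g : Matrix ι ι F).trace ≠ 0 := fun h0 => by
  have e1 := congrArg (fun X => ((g : Matrix ι ι F) * X).trace) (h.avg (g⁻¹ : GL ι F))
  let A : Submodule Z3 W := LinearMap.ker ((h.ac g : W →ₗ[Z3] W) - 1)
  have hA : ∀ a, a ∈ A ↔ h.ac g a = a := fun a => by simp [A, sub_eq_zero]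
  have e2 : ∀ a, ((g : Matrix ι ι F) * cj (h.g a) (g⁻¹ : GL ι F)).trace =
      if h.ac g a = a then (Fintype.card ι : F) else 0 := fun a => by
    rw [cj_apply, ← mul_assoc, ← mul_assoc, g_val, ← cj_apply, h.g_inv, g_val]
    split_ifs with k
    · rw [e a k, h.trace_mul, if_pos rfl]
    · obtain ⟨j, hj⟩ := h.ac_spec hg a
      rw [hj, smul_mul_assoc, trace_smul, h.trace_mul, if_neg k, smul_zero]
  simp only [Finset.mul_sum, trace_sum, e2, mul_smul_comm, mul_one, trace_smul, h0, smul_zero,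
    ← Finset.sum_filter, Finset.sum_const, nsmul_eq_mul, mul_eq_zero, h.ne, or_false] at e1
  obtain ⟨m, hm⟩ := A.toAddSubgroup.card_addSubgroup_dvd_card
  have e3 : Nat.card A.toAddSubgroup = (Finset.univ.filter fun a => h.ac g a = a).card := by
    rw [← Nat.card_eq_finsetCard]
    exact Nat.card_congr (Equiv.subtypeEquivRight fun a => by simpa using hA a)
  rw [Nat.card_eq_fintype_card, h.card, e3] at hm
  have := congrArg (Nat.cast : ℕ → F) hm
  push_cast at this
  rw [e1, zero_mul] at this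
  exact pow_ne_zero 2 h.ne this

end Wy

/-- the spectral idempotents of `D a` -/
def ee (D : W → Matrix ι ι F) (a : W) (j : Z3) : Matrix ι ι F :=
  (3 : F)⁻¹ • (1 + χ F (-j) • D a + χ F j • D (-a))

theorem ee_neg (D : W → Matrix ι ι F) (a : W) (j : Z3) : ee D (-a) j = ee D a (-j) := by
  rw [ee, ee, neg_neg, neg_neg, add_right_comm]

theorem ee_sum (D : W → Matrix ι ι F) (a : W) : ee D a 0 + ee D a 1 + ee D a 2 = 1 := by
  have := h3 (F := F)
  simp only [ee, neg_zero, χ_zero, χ_one, χ_two, χ_neg_one, χ_neg_two]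
  match_scalars <;> field_simp <;>
    first | linear_combination om_eq (F := F) | linear_combination -om_eq (F := F) | ring

theorem ee_D (D : W → Matrix ι ι F) (a : W) : D a = ee D a 0 + ω • ee D a 1 + ω ^ 2 • ee D a 2 := by
  have := h3 (F := F)
  simp only [ee, neg_zero, χ_zero, χ_one, χ_two, χ_neg_one, χ_neg_two]
  match_scalars <;> field_simp
  · linear_combination (2 - 2 * ω) * om_eq (F := F)
  · linear_combination -om_eq (F := F)
  · linear_combination -(ω ^ 2 - ω + 1) * om_eq (F := F)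

namespace Wy

variable {β : W →ₗ[Z3] W →ₗ[Z3] Z3} {D : W → Matrix ι ι F} (h : Wy β D)
include h

theorem D_ee (a : W) (j : Z3) : D a * ee D a j = χ F j • ee D a j := by
  have e : χ F j * χ F j = χ F (-j) := by rw [← χ_add, add_self_eq (W := Z3)]
  simp only [ee, mul_add, mul_smul_comm, mul_one, h.mul_self, h.mul_neg, smul_add, smul_smul]
  rw [mul_left_comm _ _ (χ F (-j)), χ_mul_neg, mul_left_comm _ _ (χ F j), e]
  module

theorem ee_D' (a : W) (j : Z3) : ee D a j * D a = χ F j • ee D a j := by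
  rw [← h.D_ee]
  simp only [ee, mul_add, add_mul, mul_smul_comm, smul_mul_assoc, mul_one, one_mul, h.neg_mul, h.mul_neg]

theorem ee_mul (a : W) (i j : Z3) : ee D a i * ee D a j = if i = j then ee D a j else 0 := by
  have e := h.D_ee (-a) (-j)
  rw [ee_neg, neg_neg] at e
  nth_rewrite 1 [ee]
  simp only [add_mul, smul_mul_assoc, one_mul, h.D_ee, e, smul_smul, ← χ_add]
  split_ifs with k
  · subst k
    have := h3 (F := F)
    simp only [neg_add_cancel, add_neg_cancel, χ_zero]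
    match_scalars; field_simp; norm_num
  · have := χ_sum (F := F) (k := i + -j) (fun e => k (by linear_combination e))
    rw [show -(i + -j) = -i + j by ring] at this
    linear_combination (norm := module) ((3 : F)⁻¹ * this) • ee D a j

theorem ee_idem (a : W) (j : Z3) : ee D a j * ee D a j = ee D a j := by rw [h.ee_mul, if_pos rfl]

theorem cj_ee {g : GL ι F} {a b : W} {k : Z3} (e : cj g (D a) = χ F k • D b) (j : Z3) :
    cj g (ee D a j) = ee D b (j - k) := by
  simp only [ee, map_smul, map_add, map_one, e, h.cj_neg e, smul_smul, ← χ_add, 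
    sub_eq_add_neg, neg_add, neg_neg]

theorem trace_ee {a : W} (ha : a ≠ 0) (j : Z3) : (ee D a j).trace = (3 : F)⁻¹ * Fintype.card ι := by
  simp [ee, h.trace_ne ha, h.trace_ne (neg_ne_zero.2 ha)]

theorem trace_ee_mul {a b : W} (hab : β a b ≠ 0) (i k : Z3) :
    (ee D a i * ee D b k).trace = (3 : F)⁻¹ * (3 : F)⁻¹ * Fintype.card ι := by
  have ha : a ≠ 0 := by rintro rfl; simp at hab
  have hb : b ≠ 0 := by rintro rfl; simp at hab
  have e1 : a ≠ b := by rintro rfl; exact hab (h.symp.alt _)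
  have e2 : a ≠ -b := by rintro rfl; simp [h.symp.alt] at hab
  have t1 := h.trace_mul a b
  have t2 := h.trace_mul a (-b)
  have t3 := h.trace_mul (-a) b
  have t4 := h.trace_mul (-a) (-b)
  simp only [e1, e2, neg_neg, neg_inj, neg_eq_iff_eq_neg, if_false] at t1 t2 t3 t4
  simp [ee, mul_add, add_mul, h.trace_ne ha, h.trace_ne (neg_ne_zero.2 ha), h.trace_ne hb,
    h.trace_ne (neg_ne_zero.2 hb), t1, t2, t3, t4, mul_assoc]

/-- the quadratic elements of the normaliser -/
def hh (a : W) (j : Z3) : GL ι F :=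
  ⟨1 + (ω - 1) • ee D a j, 1 + (ω ^ 2 - 1) • ee D a j, by
    simp only [mul_add, add_mul, mul_smul_comm, smul_mul_assoc, one_mul, mul_one, h.ee_idem]
    linear_combination (norm := module) om_cube (F := F) • ee D a j, by
    simp only [mul_add, add_mul, mul_smul_comm, smul_mul_assoc, one_mul, mul_one, h.ee_idem]
    linear_combination (norm := module) om_cube (F := F) • ee D a j⟩

@[simp] theorem hh_val (a : W) (j : Z3) : (h.hh a j : Matrix ι ι F) = 1 + (ω - 1) • ee D a j := rfl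

theorem hh_inv_val (a : W) (j : Z3) :
    (((h.hh a j)⁻¹ : GL ι F) : Matrix ι ι F) = 1 + (ω ^ 2 - 1) • ee D a j := rfl

theorem hh_mul_inv (a : W) (j : Z3) {t : Z3} (ht : t ≠ 0) :
    ((h.hh a j * (h.hh a (j + t))⁻¹ : GL ι F) : Matrix ι ι F) = χ F (1 - t * j) • D (t • a) := by
  have e1 := ee_D D a
  have e2 := ee_D D (-a)
  have e3 := ee_sum D a
  simp only [ee_neg, neg_zero, show -(1 : Z3) = 2 from rfl, show -(2 : Z3) = 1 from rfl] at e2
  rw [Units.val_mul, hh_val, hh_inv_val]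
  simp only [mul_add, add_mul, mul_smul_comm, smul_mul_assoc, one_mul, mul_one, h.ee_mul,
    left_eq_add, ht, if_false, smul_zero]
  have o := om_cube (F := F)
  rcases z3 t with rfl | rfl | rfl
  · exact absurd rfl ht
  · rw [one_smul, e1, ← e3]
    rcases z3 j with rfl | rfl | rfl
    · rw [show (1 : Z3) - 1 * 0 = 1 from rfl, show (0 : Z3) + 1 = 1 from rfl, χ_one]
      linear_combination (norm := module) -o • ee D a 2
    · rw [show (1 : Z3) - 1 * 1 = 0 from rfl, show (1 : Z3) + 1 = 2 from rfl, χ_zero]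
      module
    · rw [show (1 : Z3) - 1 * 2 = 2 from rfl, show (2 : Z3) + 1 = 0 from rfl, χ_two]
      linear_combination (norm := module) -o • ee D a 1 - (ω * o) • ee D a 2
  · rw [two_smul', e2, ← e3]
    rcases z3 j with rfl | rfl | rfl
    · rw [show (1 : Z3) - 2 * 0 = 1 from rfl, show (0 : Z3) + 2 = 2 from rfl, χ_one]
      linear_combination (norm := module) -o • ee D a 1
    · rw [show (1 : Z3) - 2 * 1 = 2 from rfl, show (1 : Z3) + 2 = 0 from rfl, χ_two]
      linear_combination (norm := module) -o • ee D a 2 - (ω * o) • ee D a 1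
    · rw [show (1 : Z3) - 2 * 2 = 0 from rfl, show (2 : Z3) + 2 = 1 from rfl, χ_zero]
      module

theorem cj_hh_val {g : GL ι F} {a b : W} {k : Z3} (e : cj g (D a) = χ F k • D b) (j : Z3) :
    g * h.hh a j * g⁻¹ = h.hh b (j - k) :=
  Units.ext (by rw [← cj_val, hh_val, map_add, map_one, map_smul, h.cj_ee e, hh_val])

theorem cj_hh (b : W) (j : Z3) (a : W) : ∃ k, cj (h.hh b j) (D a) = χ F k • D (a + β a b • b) := by
  have e := h.cj_hh_val (h.cj_g a b) j
  rw [h.symp.skew, sub_neg_eq_add] at e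
  have e1 : cj (h.hh b j) (D a) = ((h.hh b j * (h.hh b (j + β a b))⁻¹ : GL ι F) : Matrix ι ι F) * D a := by
    rw [← e, ← h.g_val a, cj_val, ← Units.val_mul]
    congr 1; group
  by_cases ht : β a b = 0
  · exact ⟨0, by simp [e1, ht]⟩
  · exact ⟨_, by rw [e1, h.hh_mul_inv b j ht, smul_mul_assoc, h.mul, smul_smul, ← χ_add, add_comm a]⟩

theorem hh_mem (b : W) (j : Z3) : h.hh b j ∈ h.N := fun a => ⟨_, h.cj_hh b j a⟩

theorem ac_hh (b : W) (j : Z3) (a : W) : h.ac (h.hh b j) a = a + β a b • b :=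
  let ⟨_, e⟩ := h.cj_hh b j a; h.ac_eq (h.hh_mem b j) e

theorem N_le {K : Subgroup (GL ι F)} (h1 : ∀ g : GL ι F, IsScal (g : Matrix ι ι F) → g ∈ K)
    (h2 : ∀ a j, h.hh a j ∈ K) : h.N ≤ K := by
  have := h.nonempty
  have h3 : ∀ (g : GL ι F) (c : F) a, (g : Matrix ι ι F) = c • D a → g ∈ K := fun g c a e => by
    have e1 := h.hh_mul_inv a 1 one_ne_zero
    rw [mul_one, sub_self, χ_zero, one_smul, one_smul] at e1
    have : g = (g * h.g (-a)) * (h.hh a 1 * (h.hh a (1 + 1))⁻¹) :=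
      Units.ext (by rw [Units.val_mul, e1, Units.val_mul, g_val, mul_assoc, h.neg_mul, mul_one])
    rw [this]
    exact mul_mem (h1 _ ⟨c, by simp [e, h.mul_neg]⟩) (mul_mem (h2 _ _) (inv_mem (h2 _ _)))
  let L : Subgroup (W ≃ₗ[Z3] W) :=
    { carrier := {s | ∃ k ∈ K, k ∈ h.N ∧ h.ac k = s}
      one_mem' := ⟨1, one_mem _, one_mem _, h.ac_one⟩
      mul_mem' := by
        rintro _ _ ⟨k, k1, k2, rfl⟩ ⟨l, l1, l2, rfl⟩
        exact ⟨_, mul_mem k1 l1, mul_mem k2 l2, h.ac_mul k2 l2⟩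
      inv_mem' := by
        rintro _ ⟨k, k1, k2, rfl⟩
        exact ⟨_, inv_mem k1, inv_mem k2, h.ac_inv k2⟩ }
  have hL : Sp β ≤ L := Sp_le h.symp (by rintro _ ⟨k, -, k2, rfl⟩; exact h.ac_Sp k2) fun v c => by
    have t : T β L v 1 := ⟨_, ⟨_, h2 v 0, h.hh_mem v 0, rfl⟩, fun x => by rw [h.ac_hh, one_mul]⟩
    rcases z3 c with rfl | rfl | rfl
    exacts [T.zero_right v, t, t.add h.symp t]
  intro g hg
  obtain ⟨k, k1, k2, e⟩ := hL (h.ac_Sp hg)
  obtain ⟨c, a, e'⟩ := h.ker (mul_mem hg (inv_mem k2)) (by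
    rw [h.ac_mul hg (inv_mem k2), h.ac_inv k2, e, mul_inv_cancel])
  simpa using mul_mem (h3 _ c a e') k1

end Wy

end Cfsg.Agent.H5.T3
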