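import Cfsg.Agent.H5.T3.Norm
import Cfsg.Agent.H8.M3E2
import Cfsg.Agent.H8.DicksonCore

/-! Pairs of homologies of order three and pairs of transvections. -/

set_option autoImplicit false
set_option linter.unusedSimpArgs false
set_option linter.unusedSectionVars false
set_option linter.unusedVariables false

namespace Cfsg.Agent.H5.T3

open Matrix Cfsg.Agent.H7 Cfsg.Agent.H8 Cfsg.Agent.H8.M3
open scoped MatrixGroups
open Matrix.ProjGenLinGroup (mk)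

/-- possible values of the pair invariant -/
def MV {K : Type*} [Field K] (μ : K) : Prop :=
  3 * μ = 1 ∨ 3 * μ = 2 ∨ (9 * μ ^ 2 - 9 * μ + 1 = 0 ∧ (5 : K) ≠ 0)

theorem plane_closed {K : Type*} [Field K] [IsAlgClosed K] (p : ℕ) [Fact p.Prime] [CharP K p]
    {G : Type*} [Group G] [Finite G] (psi : G →* GL (Fin 2) K) (hp : ¬ p ∣ Nat.card G) {l a b : K}
    (e3 : l ^ 2 + l + 1 = 0) (hl : l * l ≠ 1) (h0 : a * b ≠ 0) (h1 : a * b ≠ 1) {X Y : G}
    (eX : (psi X : M2 K) = B1 l a) (eY : (psi Y : M2 K) = B2 l b) : MV (a * b) := by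
  have e : l ^ 3 = 1 := by linear_combination (l - 1) * e3
  have hl0 : l ≠ 0 := by rintro rfl; simp at e
  have hl1 : l - 1 ≠ 0 := fun e => hl (by rw [sub_eq_zero.1 e, one_mul])
  have hl2 : l + 1 ≠ 0 := fun e => hl (by rw [eq_neg_of_add_eq_zero_left e]; ring)
  have ha : a ≠ 0 := left_ne_zero_of_mul h0
  have hb : b ≠ 0 := right_ne_zero_of_mul h0
  let chi : G →* PGL(2, K) := mk.comp psi
  have hp' : ¬ p ∣ Nat.card chi.range := fun hd => hp (hd.trans (Subgroup.card_range_dvd _))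
  have : Finite chi.range := Finite.Set.finite_range _
  rcases dickson_tame p _ hp' with ⟨g, hg⟩ | ⟨k, hk⟩
  · exfalso
    have tr : ∀ Z : G, (psi Z : M2 K).trace ≠ 0 →
        (g⁻¹ * psi Z * g) 0 1 = 0 ∧ (g⁻¹ * psi Z * g) 1 0 = 0 := fun Z hZ => by
      refine (hg _ ⟨Z, rfl⟩).resolve_right fun h => hZ ?_
      rw [← trace_units_conj' g, trace_fin_two]
      exact (congrArg₂ (· + ·) h.1 h.2).trans (add_zero 0)
    obtain ⟨a1, a2⟩ := tr X (by rw [eX]; simpa [B1, trace_fin_two] using hl2)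
    obtain ⟨b1, b2⟩ := tr Y (by rw [eY]; simpa [B2, trace_fin_two, add_comm] using hl2)
    have : (g⁻¹ * psi X * g) * (g⁻¹ * psi Y * g) = (g⁻¹ * psi Y * g) * (g⁻¹ * psi X * g) := by
      generalize g⁻¹ * psi X * g = U at *
      generalize g⁻¹ * psi Y * g = V at *
      ext i j; fin_cases i <;> fin_cases j <;>
        simp [mul_apply, Fin.sum_univ_two, a1, a2, b1, b2, mul_comm]
    have h3 : psi X * psi Y = psi Y * psi X := by
      have e : ∀ U V : GL (Fin 2) K, g⁻¹ * U * g * (g⁻¹ * V * g) = g⁻¹ * (U * V) * g := by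
        intro U V; group
      rwa [e, e, mul_left_inj, mul_right_inj] at this
    have e4 : B1 l a * B2 l b = B2 l b * B1 l a := by
      rw [← eX, ← eY, ← Units.val_mul, h3, Units.val_mul]
    have e5 := congrFun (congrFun e4 0) 0
    simp only [B1, B2, mul_apply, Fin.sum_univ_two, of_apply, cons_val', cons_val_zero, cons_val_one,
      cons_val_fin_one] at e5
    exact mul_ne_zero (mul_ne_zero hl1 hl1) h0 (by linear_combination e5)
  obtain ⟨c2, c3, c5⟩ := hk.char (K := K) p hp'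
  let φ := chi.rangeRestrict
  have hφ : ∀ Z : G, φ Z = 1 → ∃ c : K, (psi Z : M2 K) = c • 1 := fun Z hZ => by
    obtain ⟨h1, h2, h3⟩ := mk_eq_one_iff.1 (congrArg Subtype.val hZ)
    refine ⟨psi Z 1 1, ?_⟩
    ext i j; fin_cases i <;> fin_cases j <;> simp [h1, h2, h3]
  have w : ∀ j n : ℕ, (φ X * φ Y ^ j) ^ n = 1 → ∃ c : K, (B1 l a * B2 (l ^ j) b) ^ n = c • 1 := by
    intro j n h
    rw [← map_pow, ← map_mul, ← map_pow] at h
    simpa [eX, eY, B2_pow] using hφ _ h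
  have oX : φ X ^ 3 = 1 := by
    rw [← map_pow]
    refine Subtype.ext (congrArg mk (Units.ext ?_ : psi (X ^ 3) = 1) |>.trans (map_one _))
    rw [map_pow, Units.val_pow_eq_pow_val, eX, B1_pow, e]
    ext i j; fin_cases i <;> fin_cases j <;> simp [B1]
  have oY : φ Y ^ 3 = 1 := by
    rw [← map_pow]
    refine Subtype.ext (congrArg mk (Units.ext ?_ : psi (Y ^ 3) = 1) |>.trans (map_one _))
    rw [map_pow, Units.val_pow_eq_pow_val, eY, B2_pow, e]
    ext i j; fin_cases i <;> fin_cases j <;> simp [B2]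
  have t := fun j : ℕ => B12 (l := l) (l' := l ^ j) a b
  have u := fun (j : ℕ) (h : l ^ j ≠ 1) (c : K) => u2 (B := B1 l a * B2 (l ^ j) b) (c := c)
    (by rw [(t j).2.2]; exact mul_ne_zero (sub_ne_zero.2 h) hb)
  have v2 : ∀ j, l ^ j ≠ 1 → (φ X * φ Y ^ j) ^ 2 = 1 → l + l ^ j + (l - 1) * (l ^ j - 1) * (a * b) = 0 :=
    fun j hj h => by obtain ⟨c, hc⟩ := w j _ h; rw [← (t j).1]; exact (u j hj c).1 hc
  have v3 : ∀ j, l ^ j ≠ 1 → (φ X * φ Y ^ j) ^ 3 = 1 →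
      (l + l ^ j + (l - 1) * (l ^ j - 1) * (a * b)) ^ 2 = l * l ^ j :=
    fun j hj h => by obtain ⟨c, hc⟩ := w j _ h; rw [← (t j).1, ← (t j).2.1]; exact (u j hj c).2.1 hc
  have v5 : ∀ j, l ^ j ≠ 1 → (φ X * φ Y ^ j) ^ 5 = 1 →
      (l + l ^ j + (l - 1) * (l ^ j - 1) * (a * b)) ^ 4 -
        3 * (l + l ^ j + (l - 1) * (l ^ j - 1) * (a * b)) ^ 2 * (l * l ^ j) + (l * l ^ j) ^ 2 = 0 :=
    fun j hj h => by obtain ⟨c, hc⟩ := w j _ h; rw [← (t j).1, ← (t j).2.1]; exact (u j hj c).2.2.2 hc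
  have n1 : l ^ 1 ≠ 1 := by rw [pow_one]; exact sub_ne_zero.1 hl1
  have n2 : l ^ 2 ≠ 1 := by rwa [sq]
  generalize a * b = μ at *
  have g : ∀ j, (φ X * φ Y ^ j) ^ 2 = 1 ∨ (φ X * φ Y ^ j) ^ 3 = 1 ∨
      (k = 5 ∧ (φ X * φ Y ^ j) ^ 5 = 1) := fun j => by
    rcases hk.1 with ⟨rfl, -⟩ | ⟨rfl, -⟩ | ⟨rfl, -⟩
    · exact (hk.2 (φ X * φ Y ^ j)).imp_right fun h => Or.inl (h.elim id id)
    · obtain ⟨f, hf⟩ := hk.inj4
      have := S4_fact2 (f (φ X)) (f (φ Y ^ j)) (by rw [← map_pow, oX, map_one])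
        (by rw [← map_pow, ← pow_mul, mul_comm, pow_mul, oY, one_pow, map_one])
      simp only [← map_mul f, ← map_pow f, map_eq_one_iff f hf.1] at this
      exact this.imp_right Or.inl
    · exact (hk.2 (φ X * φ Y ^ j)).imp_right (Or.imp_right fun h => ⟨rfl, h⟩)
  have g1 : 2 - 3 * μ = 0 ∨ (2 - 3 * μ) ^ 2 = 1 ∨
      ((5 : K) ≠ 0 ∧ (2 - 3 * μ) ^ 4 - 3 * (2 - 3 * μ) ^ 2 + 1 = 0) := by
    have z : l + l ^ 1 + (l - 1) * (l ^ 1 - 1) * μ = l * (2 - 3 * μ) := by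
      linear_combination μ * e3
    rcases g 1 with h | h | ⟨h5, h⟩
    · have := v2 1 n1 h
      rw [z] at this
      exact Or.inl ((mul_eq_zero.1 this).resolve_left hl0)
    · have := v3 1 n1 h
      rw [z] at this
      exact Or.inr (Or.inl (mul_left_cancel₀ (pow_ne_zero 2 hl0) (by linear_combination this)))
    · have := v5 1 n1 h
      rw [z] at this
      exact Or.inr (Or.inr ⟨c5 h5, mul_left_cancel₀ (pow_ne_zero 4 hl0) (by linear_combination this)⟩)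
  have g2 : 3 * μ - 1 = 0 ∨ (3 * μ - 1) ^ 2 = 1 ∨
      ((5 : K) ≠ 0 ∧ (3 * μ - 1) ^ 4 - 3 * (3 * μ - 1) ^ 2 + 1 = 0) := by
    have z : l + l ^ 2 + (l - 1) * (l ^ 2 - 1) * μ = 3 * μ - 1 := by
      linear_combination (1 - μ) * e3 + μ * e
    have z' : l * l ^ 2 = 1 := by linear_combination e
    rcases g 2 with h | h | ⟨h5, h⟩
    · have := v2 2 n2 h
      rw [z] at this
      exact Or.inl this
    · have := v3 2 n2 h
      rw [z, z'] at this
      exact Or.inr (Or.inl this)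
    · have := v5 2 n2 h
      rw [z, z'] at this
      exact Or.inr (Or.inr ⟨c5 h5, by linear_combination this⟩)
  exact alg3 h0 h1 c2 c3 g1 g2

variable {F : Type*} [Field F] {ι : Type} [Fintype ι] [DecidableEq ι]

theorem nilp_two {N : M2 F} (h : N * N = 0) : ∃ y z : Fin 2 → F, z ⬝ᵥ y = 0 ∧ N = vecMulVec y z := by
  have e := fun i j => congrFun (congrFun h i) j
  have e0 := e 0 0; have e1 := e 0 1; have e3 := e 1 1
  simp only [mul_apply, Fin.sum_univ_two, Matrix.zero_apply] at e0 e1 e3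
  by_cases hb : N 0 1 = 0
  · rw [hb] at e0 e3
    refine ⟨![0, N 1 0], ![1, 0], by simp, ?_⟩
    ext i j; fin_cases i <;> fin_cases j <;> simp [vecMulVec, hb] <;> grind
  · refine ⟨![1, -N 0 0 / N 0 1], ![N 0 0, N 0 1], by simp; field_simp; ring, ?_⟩
    ext i j; fin_cases i <;> fin_cases j <;> simp [vecMulVec] <;> field_simp <;> grind

/-- `K` contains the matrix `X` -/
def InM (K : Subgroup (GL ι F)) (X : Matrix ι ι F) : Prop := ∃ k ∈ K, (k : Matrix ι ι F) = X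

variable {K : Subgroup (GL ι F)} {X Y : Matrix ι ι F}

theorem InM.of {k : GL ι F} (h : k ∈ K) : InM K k := ⟨k, h, rfl⟩

theorem inM_iff {k : GL ι F} : InM K k ↔ k ∈ K := ⟨fun ⟨_, h, e⟩ => Units.ext e ▸ h, InM.of⟩

theorem InM.mul (h : InM K X) (h' : InM K Y) : InM K (X * Y) :=
  let ⟨_, a, b⟩ := h; let ⟨_, c, d⟩ := h'; ⟨_, mul_mem a c, by rw [Units.val_mul, b, d]⟩

theorem InM.inv (h : InM K X) (e : X * Y = 1) : InM K Y :=
  let ⟨k, a, b⟩ := h; ⟨_, inv_mem a, Units.inv_eq_of_mul_eq_one_right (b ▸ e)⟩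

theorem InM.congr (h : InM K X) (e : X = Y) : InM K Y := e ▸ h

theorem InM.pow (h : InM K X) (n : ℕ) : InM K (X ^ n) :=
  let ⟨_, a, b⟩ := h; ⟨_, pow_mem a n, by rw [Units.val_pow_eq_pow_val, b]⟩

theorem InM.cj (h : InM K X) {g : GL ι F} (hg : g ∈ K) : InM K (cj g X) :=
  ((InM.of hg).mul h).mul (InM.of (inv_mem hg))

theorem InM.mono {L : Subgroup (GL ι F)} (h : InM K X) (e : K ≤ L) : InM L X :=
  let ⟨k, a, b⟩ := h; ⟨k, e a, b⟩

/-- `K` contains a transvection -/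
def HasTv (K : Subgroup (GL ι F)) : Prop :=
  ∃ v φ : ι → F, v ≠ 0 ∧ φ ≠ 0 ∧ φ ⬝ᵥ v = 0 ∧ InM K (1 + vecMulVec v φ)

theorem vv_mul (v φ w ψ : ι → F) : vecMulVec v φ * vecMulVec w ψ = (φ ⬝ᵥ w) • vecMulVec v ψ := by
  ext i j; simp [mul_apply, vecMulVec, dotProduct, Finset.mul_sum, Finset.sum_mul, mul_comm, mul_left_comm]

theorem vv_zero {v φ : ι → F} : vecMulVec v φ = 0 ↔ v = 0 ∨ φ = 0 := vecMulVec_eq_zero

theorem noTv (hK : ¬ HasTv K) {c : F} {v φ : ι → F} (e : φ ⬝ᵥ v = 0) (h : InM K (1 + c • vecMulVec v φ))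
    (hc : c ≠ 0) : vecMulVec v φ = 0 := by
  by_contra k
  rw [vv_zero, not_or] at k
  exact hK ⟨c • v, φ, smul_ne_zero hc k.1, k.2, by simp [e], by rwa [smul_vecMulVec]⟩

/-- extension of a `2 × 2` matrix -/
def liftM (U : Matrix ι (Fin 2) F) (Ψ : Matrix (Fin 2) ι F) (e : Ψ * U = 1) : M2 F →* Matrix ι ι F where
  toFun B := 1 + U * (B - 1) * Ψ
  map_one' := by simp
  map_mul' B C := by
    have : ∀ Z : Matrix (Fin 2) ι F, Ψ * (U * Z) = Z := fun Z => by rw [← Matrix.mul_assoc, e, Matrix.one_mul]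
    simp only [mul_add, add_mul, Matrix.mul_sub, Matrix.sub_mul, Matrix.mul_assoc, this, mul_one, one_mul,
      Matrix.one_mul, Matrix.mul_one]
    abel

theorem liftM_apply {U : Matrix ι (Fin 2) F} {Ψ : Matrix (Fin 2) ι F} (e : Ψ * U = 1) (B : M2 F) :
    liftM U Ψ e B = 1 + U * (B - 1) * Ψ := rfl

/-- two columns -/
def cols2 (v w : ι → F) : Matrix ι (Fin 2) F := of fun i => ![v i, w i]

theorem exists_lift {v w φ ψ : ι → F} (hd : (φ ⬝ᵥ v) * (ψ ⬝ᵥ w) - (φ ⬝ᵥ w) * (ψ ⬝ᵥ v) ≠ 0) :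
    ∃ (Ψ : Matrix (Fin 2) ι F) (e : Ψ * cols2 v w = 1), ∀ c : F,
      liftM _ Ψ e !![1 + c * (φ ⬝ᵥ v), c * (φ ⬝ᵥ w); 0, 1] = 1 + c • vecMulVec v φ ∧
      liftM _ Ψ e !![1, 0; c * (ψ ⬝ᵥ v), 1 + c * (ψ ⬝ᵥ w)] = 1 + c • vecMulVec w ψ := by
  let G : M2 F := of ![φ, ψ] * cols2 v w
  have hG : G = !![φ ⬝ᵥ v, φ ⬝ᵥ w; ψ ⬝ᵥ v, ψ ⬝ᵥ w] := by
    ext i j; fin_cases i <;> fin_cases j <;> simp [G, cols2, mul_apply, dotProduct, vecMul]
  have hu : IsUnit G.det := by rw [hG, det_fin_two_of]; exact hd.isUnit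
  refine ⟨G⁻¹ * of ![φ, ψ], by rw [Matrix.mul_assoc, nonsing_inv_mul _ hu], fun c => ⟨?_, ?_⟩⟩
  · rw [liftM_apply, show !![1 + c * (φ ⬝ᵥ v), c * (φ ⬝ᵥ w); 0, 1] - 1 = !![c, 0; 0, 0] * G by
      rw [hG]; ext i j; fin_cases i <;> fin_cases j <;> simp, Matrix.mul_assoc, Matrix.mul_assoc,
      mul_nonsing_inv_cancel_left _ _ hu]
    ext i j; simp [cols2, mul_apply, vecMulVec, vecMul, dotProduct]; ring
  · rw [liftM_apply, show !![1, 0; c * (ψ ⬝ᵥ v), 1 + c * (ψ ⬝ᵥ w)] - 1 = !![0, 0; 0, c] * G by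
      rw [hG]; ext i j; fin_cases i <;> fin_cases j <;> simp, Matrix.mul_assoc, Matrix.mul_assoc,
      mul_nonsing_inv_cancel_left _ _ hu]
    ext i j; simp [cols2, mul_apply, vecMulVec, vecMul, dotProduct]; ring

theorem mem_lift {f : M2 F →* Matrix ι ι F} {B : GL (Fin 2) F} :
    B ∈ K.comap (Units.map f) ↔ InM K (f B) := (inM_iff (k := Units.map f B)).symm

theorem plane [Finite F] [Om F] (hK : ¬ HasTv K) {v w φ ψ : ι → F} (h1 : φ ⬝ᵥ v = 1) (h2 : ψ ⬝ᵥ w = 1)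
    (k1 : InM K (1 + ((Om.om : F) - 1) • vecMulVec v φ))
    (k2 : InM K (1 + ((Om.om : F) - 1) • vecMulVec w ψ))
    (e0 : φ ⬝ᵥ w * ψ ⬝ᵥ v ≠ 0) (e1 : φ ⬝ᵥ w * ψ ⬝ᵥ v ≠ 1) : MV (φ ⬝ᵥ w * ψ ⬝ᵥ v) := by
  obtain ⟨Ψ, e, hl⟩ := exists_lift (v := v) (w := w) (φ := φ) (ψ := ψ) (by
    rw [h1, h2, one_mul]; exact sub_ne_zero.2 e1.symm)
  obtain ⟨l1, l2⟩ := hl (Om.om - 1)
  rw [h1, mul_one, add_sub_cancel] at l1
  rw [h2, mul_one, add_sub_cancel] at l2
  obtain ⟨p, hp⟩ := CharP.exists F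
  have : Fact p.Prime := ⟨CharP.char_is_prime F p⟩
  let L := K.comap (Units.map (liftM _ Ψ e))
  let j := algebraMap F (AlgebraicClosure F)
  have hj : Function.Injective j := j.injective
  have o := om_ne (F := F)
  have := plane_closed p ((GeneralLinearGroup.map j).comp L.subtype) (l := j Om.om)
    (a := j (φ ⬝ᵥ w)) (b := j (ψ ⬝ᵥ v)) (fun hd => by
      obtain ⟨x, hx⟩ := exists_prime_orderOf_dvd_card' p hd
      have a1 : ((x : GL (Fin 2) F) : M2 F) ^ p = 1 := by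
        rw [← Units.val_pow_eq_pow_val, ← Subgroup.coe_pow, ← hx, pow_orderOf_eq_one]; rfl
      have a2 : (((x : GL (Fin 2) F) : M2 F) - 1) ^ p = 0 := by
        rw [sub_pow_char_of_commute _ (Commute.one_right _), a1, one_pow, sub_self]
      obtain ⟨y, z, a3, a4⟩ := nilp_two (sq_zero_of_nilp ⟨p, a2⟩)
      have a5 := mem_lift.1 x.2
      rw [liftM_apply, a4, mul_vecMulVec, vecMulVec_mul, ← one_smul F (vecMulVec _ _)] at a5
      have a6 := noTv hK (by rw [dotProduct_mulVec, vecMul_vecMul, e, vecMul_one, a3]) a5 one_ne_zero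
      rw [← vecMulVec_mul, ← mul_vecMulVec, ← a4] at a6
      have a7 := congrArg (fun Z => Ψ * Z * cols2 v w) a6
      simp only [Matrix.mul_assoc, e, Matrix.mul_one, Matrix.mul_zero, Matrix.zero_mul] at a7
      rw [← Matrix.mul_assoc, e, Matrix.one_mul, sub_eq_zero] at a7
      have : x = 1 := Subtype.ext (Units.ext a7)
      rw [this, orderOf_one] at hx
      exact (Fact.out : p.Prime).one_lt.ne hx)
    (hj.eq_iff.2 (om_eq (F := F)) |> fun e => by simpa using e)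
    (by rw [← map_mul, ← map_one j, hj.ne_iff, ← sq]; exact om_sq_ne_one)
    (by rw [← map_mul]; simpa using e0) (by rw [← map_mul, ← map_one j, hj.ne_iff]; exact e1)
    (X := ⟨mat Om.om ((Om.om - 1) * φ ⬝ᵥ w) 0 1 (by simpa), mem_lift.2 (k1.congr l1.symm)⟩)
    (Y := ⟨mat 1 0 ((Om.om - 1) * ψ ⬝ᵥ v) Om.om (by simpa), mem_lift.2 (k2.congr l2.symm)⟩)
    (by ext i k; fin_cases i <;> fin_cases k <;> simp [B1])
    (by ext i k; fin_cases i <;> fin_cases k <;> simp [B2])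
  rw [← map_mul] at this
  generalize φ ⬝ᵥ w * ψ ⬝ᵥ v = μ at this
  refine this.imp (fun e => hj (by simpa [map_ofNat] using e)) (Or.imp
    (fun e => hj (by simpa [map_ofNat] using e)) fun e => ⟨hj (by simpa [map_ofNat] using e.1),
    fun k => e.2 (by rw [← map_ofNat j 5, k, map_zero])⟩)

/-- rank one idempotent -/
def Rk1 (P : Matrix ι ι F) : Prop := ∃ v φ : ι → F, φ ⬝ᵥ v = 1 ∧ P = vecMulVec v φ

theorem Rk1.cj {P : Matrix ι ι F} (h : Rk1 P) (g : GL ι F) : Rk1 (cj g P) := by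
  obtain ⟨v, φ, e, rfl⟩ := h
  exact ⟨(g : Matrix ι ι F) *ᵥ v, φ ᵥ* ((g⁻¹ : GL ι F) : Matrix ι ι F), by
    rw [dotProduct_mulVec, vecMul_vecMul, Units.inv_mul, vecMul_one, e], by
    rw [cj_apply, mul_vecMulVec, vecMulVec_mul]⟩

theorem Rk1.idem {P : Matrix ι ι F} (h : Rk1 P) : P * P = P := by
  obtain ⟨v, φ, e, rfl⟩ := h
  rw [vv_mul, e, one_smul]

theorem Rk1.trace {P : Matrix ι ι F} (h : Rk1 P) : P.trace = 1 := by
  obtain ⟨v, φ, e, rfl⟩ := h
  rw [trace_vecMulVec, dotProduct_comm, e]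

theorem pair [Finite F] [Om F] (hK : ¬ HasTv K) {P Q : Matrix ι ι F} (hP : Rk1 P) (hQ : Rk1 Q)
    (k1 : InM K (1 + ((Om.om : F) - 1) • P)) (k2 : InM K (1 + ((Om.om : F) - 1) • Q)) :
    P = Q ∨ (P * Q = 0 ∧ Q * P = 0) ∨ MV (P * Q).trace := by
  have hl0 := om_ne (F := F)
  have hl1 := om_sub (F := F)
  have hl := om_sq_ne_one (F := F)
  have inv : ∀ {P : Matrix ι ι F}, Rk1 P → InM K (1 + ((Om.om : F) - 1) • P) →
      InM K (1 + ((Om.om : F)⁻¹ - 1) • P) := fun h k => k.inv (by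
    simp only [mul_add, add_mul, smul_mul_assoc, mul_smul_comm, one_mul, mul_one, h.idem]
    match_scalars <;> field_simp <;> ring)
  have i1 := inv hP k1
  have i2 := inv hQ k2
  obtain ⟨v, φ, h1, rfl⟩ := hP
  obtain ⟨w', ψ', h2, rfl⟩ := hQ
  rw [vv_mul, vv_mul, trace_smul, trace_vecMulVec, dotProduct_comm v, smul_eq_mul]
  by_cases e1 : φ ⬝ᵥ w' * ψ' ⬝ᵥ v = 1
  swap
  · by_cases e0 : φ ⬝ᵥ w' * ψ' ⬝ᵥ v = 0
    swap
    · exact Or.inr (Or.inr (plane hK h1 h2 k1 k2 e0 e1))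
    generalize (Om.om : F) = l at *
    refine Or.inr (Or.inl ?_)
    rcases mul_eq_zero.1 e0 with e | e
    · refine ⟨by rw [e, zero_smul], ?_⟩
      by_cases e' : ψ' ⬝ᵥ v = 0
      · rw [e', zero_smul]
      rw [noTv hK (c := (l - 1) ^ 2 * l⁻¹ * ψ' ⬝ᵥ v) e ((((k2.mul k1).mul i2).mul i1).congr (by
        simp only [mul_add, add_mul, smul_mul_assoc, mul_smul_comm, one_mul, mul_one, vv_mul, h1, h2, e]
        match_scalars <;> field_simp <;> ring)) (by simp [*]), smul_zero]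
    · refine ⟨?_, by rw [e, zero_smul]⟩
      by_cases e' : φ ⬝ᵥ w' = 0
      · rw [e', zero_smul]
      rw [noTv hK (c := (l - 1) ^ 2 * l⁻¹ * φ ⬝ᵥ w') e ((((k1.mul k2).mul i1).mul i2).congr (by
        simp only [mul_add, add_mul, smul_mul_assoc, mul_smul_comm, one_mul, mul_one, vv_mul, h1, h2, e]
        match_scalars <;> field_simp <;> ring)) (by simp [*]), smul_zero]
  left
  generalize (Om.om : F) = l at *
  obtain ⟨w, ψ, h2, h3, h4, e⟩ : ∃ w ψ, ψ ⬝ᵥ w = 1 ∧ φ ⬝ᵥ w = 1 ∧ ψ ⬝ᵥ v = 1 ∧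
      vecMulVec w' ψ' = vecMulVec w ψ :=
    ⟨(ψ' ⬝ᵥ v) • w', (φ ⬝ᵥ w') • ψ', by
      rw [smul_dotProduct, dotProduct_smul, h2, smul_eq_mul, smul_eq_mul, mul_one, e1],
      by rw [dotProduct_smul, smul_eq_mul, mul_comm, e1], by rw [smul_dotProduct, smul_eq_mul, e1],
      by rw [smul_vecMulVec, vecMulVec_smul, smul_smul, mul_comm, e1, one_smul]⟩
  rw [e] at k2 i2 ⊢
  obtain ⟨o, rfl⟩ : ∃ o, v = w + o := ⟨v - w, by abel⟩
  obtain ⟨χ, rfl⟩ : ∃ χ, φ = ψ + χ := ⟨φ - ψ, by abel⟩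
  rw [dotProduct_add, h2, add_eq_left] at h4
  rw [add_dotProduct, h2, add_eq_left] at h3
  rw [add_dotProduct, dotProduct_add, dotProduct_add, h2, h3, h4, add_zero, add_eq_left, zero_add] at h1
  have x1 := (k1.mul i2).congr
    (Y := 1 + (l - 1) • (vecMulVec w χ + l⁻¹ • vecMulVec o ψ + vecMulVec o χ)) (by
      simp only [vecMulVec_add, add_vecMulVec, mul_add, add_mul, smul_mul_assoc, mul_smul_comm, one_mul,
        mul_one, vv_mul, h1, h2, h3, h4]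
      match_scalars <;> field_simp <;> ring)
  have x2 := (i2.mul k1).congr
    (Y := 1 + (l - 1) • (l⁻¹ • vecMulVec w χ + vecMulVec o ψ + vecMulVec o χ)) (by
      simp only [vecMulVec_add, add_vecMulVec, mul_add, add_mul, smul_mul_assoc, mul_smul_comm, one_mul,
        mul_one, vv_mul, h1, h2, h3, h4]
      match_scalars <;> field_simp <;> ring)
  have x3 : vecMulVec o χ = 0 := by
    have y1 := (x2.mul x1).inv (Y := (1 - (l - 1) • (vecMulVec w χ + l⁻¹ • vecMulVec o ψ + vecMulVec o χ) +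
      ((l - 1) ^ 2 * l⁻¹) • vecMulVec o χ) * (1 - (l - 1) • (l⁻¹ • vecMulVec w χ + vecMulVec o ψ +
      vecMulVec o χ) + ((l - 1) ^ 2 * l⁻¹) • vecMulVec o χ)) (by
      simp only [mul_add, add_mul, mul_sub, sub_mul, smul_mul_assoc, mul_smul_comm, one_mul, mul_one,
        vv_mul, h1, h2, h3, h4]
      match_scalars <;> field_simp <;> ring)
    refine noTv hK (c := (l - 1) ^ 2 * (l⁻¹ ^ 2 - 1)) h1 ((y1.mul (x1.mul x2)).congr (by
      simp only [mul_add, add_mul, mul_sub, sub_mul, smul_mul_assoc, mul_smul_comm, one_mul, mul_one,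
        vv_mul, h1, h2, h3, h4]
      match_scalars <;> field_simp <;> ring)) (mul_ne_zero (pow_ne_zero _ hl1) (fun e => hl ?_))
    field_simp at e
    linear_combination -e
  rcases vv_zero.1 x3 with rfl | rfl
  · simp only [zero_vecMulVec, smul_zero, add_zero] at x1
    rw [add_zero, vecMulVec_add, noTv hK h3 x1 hl1, add_zero]
  · simp only [vecMulVec_zero, smul_zero, add_zero, zero_add] at x2
    rw [add_zero, add_vecMulVec, noTv hK h4 x2 hl1, add_zero]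

end Cfsg.Agent.H5.T3
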