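import Cfsg.Agent.H5.T3.Pair

/-! Transvections in normal subgroups. -/

set_option autoImplicit false
set_option linter.unusedSimpArgs false
set_option linter.unusedSectionVars false
set_option linter.unusedVariables false

namespace Cfsg.Agent.H5.T3

open Matrix Cfsg.Agent.H7 Cfsg.Agent.H8 Cfsg.Agent.H8.M3
open scoped MatrixGroups

variable {F : Type*} [Field F] {ι : Type} [Fintype ι] [DecidableEq ι]

theorem cj_vv (g : GL ι F) (v φ : ι → F) : cj g (vecMulVec v φ) =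
    vecMulVec ((g : Matrix ι ι F) *ᵥ v) (φ ᵥ* ((g⁻¹ : GL ι F) : Matrix ι ι F)) := by
  rw [cj_apply, mul_vecMulVec, vecMulVec_mul]

theorem dot_cj (g : GL ι F) (v φ : ι → F) :
    (φ ᵥ* ((g⁻¹ : GL ι F) : Matrix ι ι F)) ⬝ᵥ ((g : Matrix ι ι F) *ᵥ v) = φ ⬝ᵥ v := by
  rw [dotProduct_mulVec, vecMul_vecMul, Units.inv_mul, vecMul_one]

theorem vecMul_ne (g : GL ι F) {φ : ι → F} (h : φ ≠ 0) : φ ᵥ* (g : Matrix ι ι F) ≠ 0 := fun e =>
  h (by rw [← vecMul_one φ, ← Units.mul_inv g, ← vecMul_vecMul, e, zero_vecMul])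

theorem tv_pow {v φ : ι → F} (e : φ ⬝ᵥ v = 0) (n : ℕ) :
    (1 + vecMulVec v φ) ^ n = 1 + (n : F) • vecMulVec v φ := by
  induction n with
  | zero => simp
  | succ n ih =>
    simp only [pow_succ, ih, mul_add, add_mul, mul_one, one_mul, smul_mul_assoc, vv_mul, e]
    push_cast; module

theorem gl2_aux (h2 : (2 : F) ≠ 0) {α : F} (β a : F) (hα : α * 1 - β * 0 ≠ 0) {T : GL (Fin 2) F}
    (hT : (T : M2 F) = !![2, 0; 0, 2⁻¹]) :
    mat α β 0 1 hα * T * (mat α β 0 1 hα)⁻¹ * mat 1 a 0 1 (by simp) *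
      (mat α β 0 1 hα * T * (mat α β 0 1 hα)⁻¹)⁻¹ * (mat 1 a 0 1 (by simp))⁻¹ =
      mat 1 (3 * a) 0 1 (by simp) := by
  have hα' : α ≠ 0 := by simpa using hα
  rw [mul_inv_eq_iff_eq_mul, mul_inv_eq_iff_eq_mul, inv_eq_of_mul_eq_one_right
    (b := mat α⁻¹ (-β / α) 0 1 (by simpa)) (Units.ext (by
      ext i j; fin_cases i <;> fin_cases j <;> simp [mul_apply, Fin.sum_univ_two, hα']; field_simp; ring))]
  refine Units.ext ?_
  simp only [Units.val_mul, hT]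
  ext i j; fin_cases i <;> fin_cases j <;> simp [mul_apply, Fin.sum_univ_two] <;> field_simp <;> ring

theorem tv_plane [Finite F] (h2 : (2 : F) ≠ 0) (h3 : (3 : F) ≠ 0) {S : Subgroup (GL ι F)} {τ σ : GL ι F}
    {v φ w ψ : ι → F} (hτ : (τ : Matrix ι ι F) = 1 + vecMulVec v φ) (e : φ ⬝ᵥ v = 0)
    (e1 : (σ : Matrix ι ι F) = 1 + vecMulVec w ψ) (e2 : ψ ⬝ᵥ w = 0) (ha : φ ⬝ᵥ w ≠ 0) (hb : ψ ⬝ᵥ v ≠ 0)
    (s1 : τ ∈ S) (s2 : σ ∈ S) :
    ∃ g ∈ S, ((g * τ * g⁻¹ * τ⁻¹ : GL ι F) : Matrix ι ι F) = 1 + (3 : F) • vecMulVec v φ := by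
  obtain ⟨Ψ, e3, hl⟩ := exists_lift (v := v) (w := w) (φ := φ) (ψ := ψ) (by simp [e, ha, hb])
  simp only [e, e2, mul_zero, add_zero] at hl
  let f := Units.map (liftM _ Ψ e3)
  have up : ∀ c : F, (f (mat 1 (c * φ ⬝ᵥ w) 0 1 (by simp)) : Matrix ι ι F) = 1 + c • vecMulVec v φ :=
    fun c => (hl c).1
  have m1 : ∀ n : ℕ, mat 1 (n * φ ⬝ᵥ w) 0 1 (by simp) ∈ S.comap f := fun n =>
    mem_lift.2 (((InM.of s1).pow n).congr (by rw [hτ, tv_pow e]; exact (hl _).1.symm))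
  have m2 : mat 1 0 (1 * ψ ⬝ᵥ v) 1 (by simp) ∈ S.comap f := mem_lift.2 ((InM.of s2).congr (by
    rw [e1, ← one_smul F (vecMulVec _ _)]; exact (hl 1).2.symm))
  obtain ⟨k, α, β, hα, -, -, hk⟩ := dickson_core_GL (S.comap f) (by
    let j : Fin 4 → {s : F // mat 1 s 0 1 (by simp) ∈ S.comap f} := fun n => ⟨_, m1 n⟩
    have h4 : (2 : F) - 3 ≠ 0 := by norm_num
    simpa using Nat.card_le_card_of_injective j fun a b hab => by
      have := mul_right_cancel₀ ha (congrArg Subtype.val hab)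
      fin_cases a <;> fin_cases b <;> simp at this ⊢ <;> grind) ⟨_, m2, by simpa using hb⟩
  have k2 : (2 : k) ≠ 0 := fun e => h2 (congrArg Subtype.val e)
  refine ⟨_, hk ⟨!![2, 0; 0, 2⁻¹], by simp [k2]⟩, ?_⟩
  have e4 : τ = f (mat 1 (1 * φ ⬝ᵥ w) 0 1 (by simp)) := Units.ext (by rw [up, hτ, one_smul])
  rw [e4, ← map_inv, ← map_inv, ← map_mul, ← map_mul, ← map_mul, gl2_aux h2 _ _ _ (by
    ext i j; fin_cases i <;> fin_cases j <;> simp <;> rfl), one_mul, up]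

theorem tv_step [Finite F] (h2 : (2 : F) ≠ 0) (h3 : (3 : F) ≠ 0) {A : Subgroup (GL ι F)} {τ d : GL ι F}
    {v φ : ι → F} (hτ : (τ : Matrix ι ι F) = 1 + vecMulVec v φ) (e : φ ⬝ᵥ v = 0)
    (ha : φ ⬝ᵥ ((d : Matrix ι ι F) *ᵥ v) ≠ 0) (nτ : τ ∈ Subgroup.normalizer (A : Set (GL ι F)))
    (nd : d ∈ Subgroup.normalizer (A : Set (GL ι F))) (hc : d * τ * d⁻¹ * τ⁻¹ ∈ A) : HasTv A := by
  have hv : v ≠ 0 := by rintro rfl; simp at ha
  have hφ : φ ≠ 0 := by rintro rfl; simp at ha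
  let S : Subgroup (GL ι F) :=
    { carrier := {g | g ∈ Subgroup.normalizer (A : Set (GL ι F)) ∧ g * τ * g⁻¹ * τ⁻¹ ∈ A}
      one_mem' := ⟨one_mem _, by simp⟩
      mul_mem' := fun {a b} ha hb => ⟨mul_mem ha.1 hb.1, by
        simpa [mul_assoc] using mul_mem ((Subgroup.mem_normalizer_iff.1 ha.1 _).1 hb.2) ha.2⟩
      inv_mem' := fun {a} ha => ⟨inv_mem ha.1, by
        simpa [mul_assoc] using (Subgroup.mem_normalizer_iff.1 (inv_mem ha.1) _).1 (inv_mem ha.2)⟩ }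
  have s1 : τ ∈ S := ⟨nτ, by simp⟩
  have s2 : d * τ * d⁻¹ ∈ S := by
    have n := mul_mem (mul_mem nd nτ) (inv_mem nd)
    exact ⟨n, by simpa [mul_assoc] using mul_mem ((Subgroup.mem_normalizer_iff.1 n _).1 (inv_mem hc)) hc⟩
  have e1 : ((d * τ * d⁻¹ : GL ι F) : Matrix ι ι F) = 1 + vecMulVec ((d : Matrix ι ι F) *ᵥ v)
      (φ ᵥ* ((d⁻¹ : GL ι F) : Matrix ι ι F)) := by rw [← cj_val, hτ, map_add, map_one, cj_vv]
  have e2 := (dot_cj d v φ).trans e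
  have hψ := vecMul_ne d⁻¹ hφ
  generalize d * τ * d⁻¹ = σ at *
  generalize (d : Matrix ι ι F) *ᵥ v = w at *
  generalize φ ᵥ* ((d⁻¹ : GL ι F) : Matrix ι ι F) = ψ at *
  by_cases hb : ψ ⬝ᵥ v = 0
  · refine ⟨(-φ ⬝ᵥ w) • v, ψ, smul_ne_zero (by simpa using ha) hv, hψ, by simp [hb], _, s2.2, ?_⟩
    have i1 : ((τ⁻¹ : GL ι F) : Matrix ι ι F) = 1 - vecMulVec v φ := Units.inv_eq_of_mul_eq_one_right (by
      simp [hτ, mul_sub, add_mul, vv_mul, e])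
    have i2 : ((σ⁻¹ : GL ι F) : Matrix ι ι F) = 1 - vecMulVec w ψ := Units.inv_eq_of_mul_eq_one_right (by
      simp [e1, mul_sub, add_mul, vv_mul, e2])
    simp only [Units.val_mul, i1, i2, hτ, e1, mul_add, add_mul, mul_sub, sub_mul, mul_one, one_mul, vv_mul,
      e, e2, hb, smul_mul_assoc, smul_vecMulVec, neg_dotProduct]
    module
  obtain ⟨g, hg, e3⟩ := tv_plane h2 h3 hτ e e1 e2 ha hb s1 s2
  exact ⟨(3 : F) • v, φ, smul_ne_zero h3 hv, hφ, by simp [e], _, hg.2, by rw [smul_vecMulVec, e3]⟩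

end Cfsg.Agent.H5.T3
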