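import Cfsg.Agent.H5.T3.Blk
import Cfsg.Agent.H5.T3.Tv

/-! The centraliser of a Weyl operator in an overgroup of the normaliser. -/

set_option autoImplicit false
set_option linter.unusedSimpArgs false
set_option linter.unusedSectionVars false
set_option linter.unusedVariables false

namespace Cfsg.Agent.H5.T3

open Matrix Cfsg.Agent.H9.Sp Cfsg.Agent.H7
open scoped Kronecker

variable {F : Type*} [Field F] [Om F] {M : Subgroup (GL W3 F)} {f f' : Z3 → GL Z3 F}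

local notation "ω" => (Om.om : F)
local notation "N3" => Wy.N (wy3 F)
local notation "N9" => Wy.N (wy9 F)
local notation "g3" => Wy.g (wy3 F)
local notation "ac3" => Wy.ac (wy3 F)

/-- blocks of block diagonal elements are in the Hessian group -/
def HE (M : Subgroup (GL W3 F)) : Prop := ∀ f, bd f ∈ M → f 0 ∈ N3

theorem z3_ind {p : Z3 → Prop} (a : p 0) (b : p 1) (c : p 2) (i : Z3) : p i := by
  rcases z3 i with rfl | rfl | rfl <;> assumption

theorem g3_zero : g3 0 = 1 := Units.ext (wy3 F).zero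

theorem c_const (hN : N9 ≤ M) {n : GL Z3 F} (hn : n ∈ N3) : bd (fun _ => n) ∈ M :=
  hN (bd_const n ▸ kr_mem hn (one_mem _))

theorem c_mul (hf : bd f ∈ M) (hf' : bd f' ∈ M) : bd (fun j => f j * f' j) ∈ M := by
  have := mul_mem hf hf'
  rwa [← map_mul] at this

theorem c_inv (hf : bd f ∈ M) : bd (fun j => (f j)⁻¹) ∈ M := by
  have := inv_mem hf
  rwa [← map_inv] at this

theorem HE.emb (hE : HE M) {k : GL Z3 F} (hk : emb k ∈ M) : k ∈ N3 := by simpa using hE _ hk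

theorem c_shift (hN : N9 ≤ M) (hf : bd f ∈ M) (t : Z3) : bd (fun j => f (j + t)) ∈ M :=
  have := hN (kr_mem (one_mem _) (shift_mem t))
  bd_perm (Equiv.addRight t) f ▸ mul_mem (mul_mem this hf) (inv_mem this)

theorem c_neg (hN : N9 ≤ M) (hf : bd f ∈ M) : bd (fun j => f (-j)) ∈ M :=
  have := hN (kr_mem (one_mem _) π_mem)
  bd_perm (Equiv.neg Z3) f ▸ mul_mem (mul_mem this hf) (inv_mem this)

theorem c_comm (hN : N9 ≤ M) (hf : bd f ∈ M) (hf' : bd f' ∈ M) (h : f 2 = 1) (h' : f' 2 = 1) :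
    emb (f 0 * f' 0 * (f 0)⁻¹ * (f' 0)⁻¹) ∈ M := by
  have e := c_neg hN hf'
  have := mul_mem (mul_mem (mul_mem hf e) (inv_mem hf)) (inv_mem e)
  simp only [← map_mul, ← map_inv] at this
  rw [emb_eq]
  convert this using 2
  refine funext (z3_ind (by simp) ?_ ?_)
  · simp [show -(1 : Z3) = 2 from rfl, h']
  · simp [h, Pi.mulSingle_eq_of_ne (show (2 : Z3) ≠ 0 by decide)]

theorem a_conj (hf : bd f ∈ M) {k : GL Z3 F} (hk : emb k ∈ M) : emb (f 0 * k * (f 0)⁻¹) ∈ M := by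
  have := mul_mem (mul_mem hf hk) (inv_mem hf)
  rw [emb_eq, ← map_mul, ← map_inv, ← map_mul] at this
  rw [emb_eq]
  convert this using 2
  ext1 j
  by_cases e : j = 0 <;> simp [e]

theorem he_of [Finite F] (h2 : (2 : F) ≠ 0) (hN : N9 ≤ M) (hT : ¬ HasTv (M.comap emb)) : HE M := by
  let ev := fun j : Z3 => Pi.evalMonoidHom (fun _ : Z3 => GL Z3 F) j
  let T := (M.comap bd ⊓ (ev 2).ker).map (ev 0)
  refine fun f hf => dim3 h2 (K := (M.comap bd).map (ev 0)) (fun n hn => ⟨_, c_const hN hn, rfl⟩)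
    ?_ ⟨f, hf, rfl⟩
  rintro ⟨v, φ, hv, hφ, e, _, ⟨f, hf, rfl⟩, e'⟩
  have t1 : ∀ a, g3 a ∈ T := fun a => ⟨_, ⟨c_shift hN (hN (ctrl_mem a)) 1, by
    simp [ev, show (2 : Z3) + 1 = 0 from rfl, g3_zero]⟩, by simp [ev]⟩
  have t2 : ∀ f, bd f ∈ M → f 0 ∈ Subgroup.normalizer (T : Set (GL Z3 F)) := fun f hf =>
    Subgroup.mem_normalizer_fintype (by
      rintro _ ⟨k, ⟨h1, h2⟩, rfl⟩
      exact ⟨f * k * f⁻¹, ⟨(M.comap bd).mul_mem (mul_mem hf h1) ((M.comap bd).inv_mem hf), by simpa [ev] using h2⟩, rfl⟩)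
  have t3 : ∀ f, bd f ∈ M → f 0 ∈ Subgroup.normalizer (M.comap emb : Set (GL Z3 F)) := fun f hf =>
    Subgroup.mem_normalizer_fintype fun k hk => a_conj hf hk
  obtain ⟨a, ha⟩ := (wy3 F).exists_ne hφ hv
  obtain ⟨w, ψ, hw, hψ, e1, _, ⟨k, ⟨k1, k2⟩, rfl⟩, e2⟩ := tv_step h2 h3 (d := g3 a) e' e ha (t2 f hf)
    (Subgroup.le_normalizer (t1 a)) (by
      simpa [mul_assoc, ev] using mul_mem (t1 a) ((Subgroup.mem_normalizer_iff.1 (t2 f hf) _).1 (inv_mem (t1 a))))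
  obtain ⟨b, hb⟩ := (wy3 F).exists_ne hψ hw
  obtain ⟨l, ⟨l1, l2⟩, l3⟩ := t1 b
  exact hT (tv_step h2 h3 (d := g3 b) e2 e1 hb (t3 k k1) (l3 ▸ t3 l l1) (l3 ▸ c_comm hN l1 k1 l2 k2))

theorem a0 (hN : N9 ≤ M) (hE : HE M) (hf : bd f ∈ M) (hs : ∀ j, IsScal (f j : Matrix Z3 Z3 F)) :
    bd f ∈ N9 := by
  choose c hc using hs
  have hc0 : ∀ j, c j ≠ 0 := fun j => ne_of_smul (hc j)
  let d : GL Z3 F := ⟨diagonal c, diagonal fun j => (c j)⁻¹, by simp [hc0], by simp [hc0]⟩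
  have e : sw F * bd f * (sw F)⁻¹ = bd fun _ => d := Units.ext (by
    rw [← cj_val, cj_pm]
    ext ⟨i, P⟩ ⟨j, Q⟩
    simp [bd_val, blockDiagonal_apply, hc, d, one_apply, diagonal_apply]; grind)
  have := c_const le_rfl (hE _ (e ▸ mul_mem (mul_mem (hN sw_mem) hf) (inv_mem (hN sw_mem))))
  rwa [← e, mul_mem_cancel_right (inv_mem sw_mem), mul_mem_cancel_left sw_mem] at this

theorem hh_z : ((wy3 F).hh (0, 1) 0 : Matrix Z3 Z3 F) = diagonal fun i => if i = 0 then ω else 1 := by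
  rw [Wy.hh_val, ee_z]
  ext i j; simp [single_apply, one_apply, diagonal_apply]; grind

theorem ee_x : ee (D3 F) (1, 0) 0 = (3 : F)⁻¹ • of fun _ _ => 1 := by
  rw [ee]; congr 1
  refine Matrix.ext (z3_ind ?_ ?_ ?_) <;> refine z3_ind ?_ ?_ ?_ <;>
    simp (decide := true) [D3, one_apply]

theorem comm_sq : ((((wy3 F).hh (0, 1) 0 * (wy3 F).hh (1, 0) 0 * ((wy3 F).hh (0, 1) 0)⁻¹ *
    ((wy3 F).hh (1, 0) 0)⁻¹) ^ 2 : GL Z3 F) : Matrix Z3 Z3 F) = -π3 F := by
  have := h3 (F := F)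
  have := om_eq (F := F)
  simp only [sq, Units.val_mul, Wy.hh_val, Wy.hh_inv_val, ee_z, ee_x]
  refine Matrix.ext (z3_ind ?_ ?_ ?_) <;> refine z3_ind ?_ ?_ ?_ <;>
    simp (decide := true) [mul_apply, sum3, one_apply, single_apply, pm_apply] <;> field_simp <;> grind

theorem diag_cube {k : GL Z3 F} (hk : k ∈ N3) {d : Z3 → F} (e : (k : Matrix Z3 Z3 F) = diagonal d) :
    d 1 ^ 3 = d 0 ^ 3 := by
  obtain ⟨b, i, h⟩ := hk (1, 0)
  have := congrFun (congrFun (mul_eq_of_cj h) 1) 0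
  rw [e, diagonal_mul, mul_diagonal] at this
  simp only [D3, of_apply, zero_add, if_true, zero_mul, χ_zero, mul_one, Matrix.smul_apply, smul_eq_mul] at this
  split_ifs at this
  · rw [this, mul_pow, mul_pow, χ_cube, χ_cube, one_mul, one_mul]
  · have := congrFun (congrFun k.mul_inv 1) 1
    simp_all

theorem no_neg_π (hN : N9 ≤ M) (hE : HE M) (hT : ¬ HasTv (M.comap emb)) {k : GL Z3 F}
    (hk : (k : Matrix Z3 Z3 F) = -π3 F) : emb k ∉ M := fun h => by
  by_cases h2 : (2 : F) = 0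
  · refine hT ⟨Pi.single 1 1 + Pi.single 2 1, Pi.single 1 1 + Pi.single 2 1, fun e => ?_, fun e => ?_,
      by simp (decide := true); linear_combination h2, k, h, ?_⟩
    · simpa (decide := true) using congrFun e 1
    · simpa (decide := true) using congrFun e 1
    · rw [hk]
      refine Matrix.ext (z3_ind ?_ ?_ ?_) <;> refine z3_ind ?_ ?_ ?_ <;>
        simp (decide := true) [vecMulVec_apply, one_apply, pm_apply] <;> grind
  have s := mul_mem (hN sw_mem) (hN (kr_mem (one_mem _) (shift_mem (-1))))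
  have m := mul_mem (mul_mem s h) (inv_mem s)
  have e : ∀ P Q, (_ * emb k * _⁻¹ : GL W3 F).1 P Q = _ := fun P Q => by
    rw [show _ = cj (sw F * kr 1 (pm F (Equiv.addRight (-1)))) (emb k) P Q from
      congrFun (congrFun (cj_val _ _).symm P) Q, cj_mul, kr_pm, cj_pm, cj_pm, submatrix_apply,
      submatrix_apply, emb_apply, hk]
  generalize _ * emb k * _⁻¹ = m' at m e
  have e1 : (m' : Matrix W3 W3 F) * e0 F = e0 F * m' := by
    ext ⟨i, P⟩ ⟨j, Q⟩
    rw [e0_eq, mul_diagonal, diagonal_mul, e]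
    simp [pm_apply]; grind
  have e2 : (blkG m' e1 : Matrix Z3 Z3 F) = diagonal fun i => if i = 1 then -1 else 1 := by
    ext i j
    rw [show (blkG m' e1 : Matrix Z3 Z3 F) = blk m' from rfl, blk_apply, e]
    simp [pm_apply, diagonal_apply, add_neg_eq_zero]
  have e3 := hE.emb (conj_emb e1 k ▸ mul_mem (mul_mem m h) (inv_mem m))
  have e4 := mul_mem e3 π_mem
  have e5 := diag_cube e4 (d := fun i => if i = 0 then -1 else 1) (by
    rw [Units.val_mul, Units.val_mul, Units.val_mul, hk,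
      Units.inv_eq_of_mul_eq_one_right (a := diagonal fun i => if i = 1 then -1 else 1) (by
        rw [e2]; ext i j; simp [one_apply, diagonal_apply]; grind), e2]
    refine Matrix.ext (z3_ind ?_ ?_ ?_) <;> refine z3_ind ?_ ?_ ?_ <;>
      simp (decide := true) [mul_apply, sum3, pm_apply, diagonal_apply])
  simp at e5
  exact h2 (by linear_combination e5)

theorem no_Z (hN : N9 ≤ M) (hE : HE M) (hT : ¬ HasTv (M.comap emb)) : emb (g3 (0, 1)) ∉ M := fun e3 => by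
  have h := wy3 F
  have e4 : sw F * emb (g3 (0, 1)) * (sw F)⁻¹ = bd fun j => h.hh (0, 1) 0 ^ (j + j).val := Units.ext (by
    rw [← cj_val, cj_pm, bd_val]
    simp only [Units.val_pow_eq_pow_val, hh_z, diagonal_pow]
    ext ⟨i, P⟩ ⟨j, Q⟩
    simp [emb_apply, blockDiagonal_apply, diagonal_apply, D3, χ]
    grind)
  have e5 := c_neg hN (c_shift hN (e4 ▸ mul_mem (mul_mem (hN sw_mem) e3) (inv_mem (hN sw_mem))) 2)
  obtain ⟨t, t1, t2, t3⟩ : ∃ t, bd t ∈ M ∧ t 2 = 1 ∧ t 0 = h.hh (0, 1) 0 := ⟨_, e5, pow_zero _, pow_one _⟩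
  obtain ⟨m, hm, e6⟩ := h.trans (a := (0, 1)) (b := (1, 0)) (by decide) (by decide)
  have e7 := c_const hN hm
  have e9 := c_comm hN t1 (c_mul (c_mul e7 t1) (c_inv e7)) t2 (by simp [t2])
  rw [t3, h.cj_hh_val (k := 0) (b := (1, 0)) (e6.trans (by simp)), sub_zero] at e9
  exact no_neg_π hN hE hT comm_sq (by rw [map_pow]; exact pow_mem e9 2)

theorem a1 (hN : N9 ≤ M) (hE : HE M) (hT : ¬ HasTv (M.comap emb)) (hf : bd f ∈ M) {c : F} {w : W3}
    (h0 : (f 0 : Matrix Z3 Z3 F) = c • D3 F w) (h1 : IsScal (f 1 : Matrix Z3 Z3 F))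
    (h2 : IsScal (f 2 : Matrix Z3 Z3 F)) : w = 0 := by
  by_contra hw
  have h := wy3 F
  have p := c_const hN (π_mem (F := F))
  have e1 : emb (g3 (-w)) ∈ M := by
    rw [emb_eq]
    convert c_mul (c_mul (c_mul hf p) (c_inv hf)) (c_inv p) using 2
    have e : ∀ j, IsScal (f j : Matrix Z3 Z3 F) → 1 = f j * π3 F * (f j)⁻¹ * (π3 F)⁻¹ := fun j hj => by
      rw [show f j * π3 F = π3 F * f j from Units.ext (hj.comm _)]; simp
    refine funext (z3_ind (Units.ext ?_) (by simpa (decide := true) using e 1 h1)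
      (by simpa (decide := true) using e 2 h2))
    simp only [Pi.mulSingle_eq_same]
    rw [Units.val_mul, ← cj_val, cj_of_smul (k := g3 w) h0, cj_apply, mul_assoc, mul_assoc, ← mul_assoc (π3 F).1,
      ← cj_apply, h.g_inv, h.g_val, h.g_val, cj_π, neg_neg, h.mul_self]
  obtain ⟨n, hn, e2⟩ := h.trans (neg_ne_zero.2 hw) (b := (0, 1)) (by decide)
  have e3 := a_conj (c_const hN hn) e1
  rw [show n * g3 (-w) * n⁻¹ = g3 (0, 1) from Units.ext (by rw [← cj_val, h.g_val, e2, h.g_val])] at e3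
  exact no_Z hN hE hT e3

theorem HE.all (hN : N9 ≤ M) (hE : HE M) (hf : bd f ∈ M) (j : Z3) : f j ∈ N3 := by
  simpa using hE _ (c_shift hN hf j)

theorem ac_two (hN : N9 ≤ M) (hE : HE M) (hT : ¬ HasTv (M.comap emb)) (hf : bd f ∈ M) :
    ac3 (f 2) = ac3 (f 0) := LinearEquiv.ext fun b => by
  have h := wy3 F
  obtain ⟨i, hi⟩ := h.ac_spec (hE.all hN hf 0) (-b)
  obtain ⟨j, hj⟩ := h.ac_spec (hE.all hN hf 2) b
  generalize ac3 (f 2) b = b' at hj ⊢
  have := a1 hN hE hT (c_mul (c_mul (c_mul hf (c_shift hN (hN (ctrl_mem b)) 2)) (c_inv hf))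
    (c_shift hN (hN (ctrl_mem (-b'))) 2)) (w := ac3 (f 0) (-b) + b') (c := χ F i * χ F (β3 (ac3 (f 0) (-b)) b')) (by
      simp only [zero_add, two_smul', neg_neg]
      rw [Units.val_mul, ← cj_val, h.g_val, hi, h.g_val, smul_mul_assoc, h.mul, smul_smul])
    (by simp only [show (1 : Z3) + 2 = 0 from rfl, g3_zero, zero_smul, mul_one, mul_inv_cancel]; exact isScal_one)
    ⟨χ F j, by
      simp only [show (2 : Z3) + 2 = 1 from rfl, one_smul]
      rw [Units.val_mul, ← cj_val, h.g_val, hj, h.g_val, smul_mul_assoc, h.mul_neg]⟩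
  rwa [map_neg, neg_add_eq_zero, eq_comm] at this

theorem a2 (hN : N9 ≤ M) (hE : HE M) (hT : ¬ HasTv (M.comap emb)) (hf : bd f ∈ M) : bd f ∈ N9 := by
  have h := wy3 F
  have n := hE.all hN hf
  have k2 : ∀ j, ∃ (c : F) (w : W3), (f j * (f 1)⁻¹ : GL Z3 F).1 = c • D3 F w := fun j =>
    h.ker (mul_mem (n j) (inv_mem (n 1))) (by
      have a := ac_two hN hE hT hf
      have b := ac_two hN hE hT (c_shift hN hf 1)
      rw [show (2 : Z3) + 1 = 0 from rfl, zero_add] at b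
      rw [h.ac_mul (n j) (inv_mem (n 1)), h.ac_inv (n 1), mul_inv_eq_one]
      revert j; exact z3_ind b rfl (a.trans b))
  obtain ⟨c, w, e1⟩ := k2 2
  obtain ⟨d, u, e2⟩ := k2 0
  have m1 := c_const le_rfl (inv_mem (n 1))
  have m2 := c_shift le_rfl (ctrl_mem (F := F) (-w)) 2
  have m := c_mul (c_mul hf (hN m1)) (hN m2)
  have s1 : IsScal (f 1 * (f 1)⁻¹ * g3 (((1 : Z3) + 2) • -w)).1 := by
    simp only [show (1 : Z3) + 2 = 0 from rfl, g3_zero, zero_smul, mul_one, mul_inv_cancel]; exact isScal_one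
  have s2 : IsScal (f 2 * (f 1)⁻¹ * g3 (((2 : Z3) + 2) • -w)).1 := ⟨c, by
    rw [show (2 : Z3) + 2 = 1 from rfl, one_smul, Units.val_mul, e1, h.g_val, smul_mul_assoc, h.mul_neg]⟩
  obtain ⟨c', w', s0⟩ : ∃ (c' : F) (w' : W3), (f 0 * (f 1)⁻¹ * g3 (((0 : Z3) + 2) • -w)).1 = c' • D3 F w' := ⟨_, _, by
    rw [Units.val_mul, e2, h.g_val, smul_mul_assoc, h.mul, smul_smul]⟩
  rw [a1 hN hE hT m s0 s1 s2, h.zero] at s0
  have := a0 hN hE m fun j => by
    rcases z3 j with rfl | rfl | rfl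
    exacts [⟨_, s0⟩, s1, s2]
  convert c_mul (c_mul this (c_inv m2)) (c_inv m1) using 2
  simp

/-- Step A -/
theorem cent_x (hN : N9 ≤ M) (hE : HE M) (hT : ¬ HasTv (M.comap emb)) {g : GL W3 F} (hg : g ∈ M)
    (h : (g : Matrix W3 W3 F) * D9 F (0, 0, 1) = D9 F (0, 0, 1) * g) : g ∈ N9 := by
  obtain ⟨f, rfl⟩ := exists_bd h
  exact a2 hN hE hT hg

end Cfsg.Agent.H5.T3
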