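import Cfsg.Agent.H5.T3.StepA

/-! Strong closure of the Weyl group in its normaliser. -/

set_option autoImplicit false
set_option linter.unusedSimpArgs false
set_option linter.unusedSectionVars false
set_option linter.unusedVariables false

namespace Cfsg.Agent.H5.T3

open Matrix Cfsg.Agent.H9.Sp Cfsg.Agent.H7 Module

theorem exists_fix {S : W9 ≃ₗ[Z3] W9} (h : S ^ 3 = 1) (a : W9) : ∃ b, S b = b ∧ ∀ c : Z3, b ≠ c • a := by
  let T : End Z3 W9 := (S : End Z3 W9) - 1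
  have e : ∀ K : Submodule Z3 W9, finrank Z3 K ≤ finrank Z3 (K.map T) + finrank Z3 (LinearMap.ker T) :=
    fun K => by
      have := LinearMap.finrank_range_add_finrank_ker (T.domRestrict K)
      rw [LinearMap.range_domRestrict, LinearMap.ker_domRestrict,
        ← Submodule.finrank_map_subtype_eq, Submodule.map_comap_subtype] at this
      have := Submodule.finrank_mono (inf_le_right : K ⊓ LinearMap.ker T ≤ _)
      omega
  have e1 := e ⊤
  have e2 := e (Submodule.map T ⊤)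
  have e3 := e ((Submodule.map T ⊤).map T)
  have e4 : ((Submodule.map T ⊤).map T).map T = ⊥ := (Submodule.eq_bot_iff _).2 (by
    rintro _ ⟨_, ⟨_, ⟨w, -, rfl⟩, rfl⟩, rfl⟩
    have := LinearEquiv.congr_fun h w
    simp only [pow_succ, pow_zero, one_mul, LinearEquiv.mul_apply, LinearEquiv.coe_one, id] at this
    simp only [T, LinearMap.sub_apply, LinearEquiv.coe_coe, End.one_apply, map_sub, this]
    linear_combination (norm := module) add_self_eq (S w) - add_self_eq (S (S w)))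
  rw [e4] at e3
  simp only [finrank_top, finrank_bot, finrank_prod, finrank_self] at e1 e3
  obtain ⟨b, h1, h2⟩ := H6.exists_not_mem_one (K := LinearMap.ker T) (by omega) a
  exact ⟨b, sub_eq_zero.1 h1, h2⟩

variable {F : Type*} [Field F] [Om F]

namespace Wy

variable {W : Type} [AddCommGroup W] [Module Z3 W] [Fintype W] [DecidableEq W]
  {ι : Type} [Fintype ι] [DecidableEq ι] {β : W →ₗ[Z3] W →ₗ[Z3] Z3} {D : W → Matrix ι ι F} (h : Wy β D)
include h

theorem trans' {a b : W} (ha : a ≠ 0) (hb : b ≠ 0) (k : Z3) : ∃ g ∈ h.N, cj g (D a) = χ F k • D b := by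
  obtain ⟨g, hg, e⟩ := h.trans ha hb
  obtain ⟨s, hs⟩ := h.symp.exists_one hb
  exact ⟨_, mul_mem (h.g_mem (k • s)) hg, by rw [cj_mul, e, h.cj_g]; simp [hs]⟩

theorem cj_smul {g : GL ι F} {a b : W} {k : Z3} (e : cj g (D a) = χ F k • D b) (t : Z3) :
    cj g (D (t • a)) = χ F (t * k) • D (t • b) := by
  rcases z3 t with rfl | rfl | rfl
  · simp [h.zero]
  · simpa using e
  · rw [two_smul', two_smul', h.cj_neg e, two_mul, add_self_eq (W := Z3)]

theorem cj_add {g : GL ι F} {a b a' b' : W} {k l : Z3} (e : cj g (D a) = χ F k • D a')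
    (e' : cj g (D b) = χ F l • D b') (e2 : β a' b' = β a b) :
    cj g (D (a + b)) = χ F (k + l) • D (a' + b') := by
  have := congrArg (cj g) (h.mul a b)
  rw [map_mul, map_smul, e, e', smul_mul_smul_comm, h.mul, e2, smul_comm, ← χ_add] at this
  exact (smul_right_injective _ (χ_ne _) this).symm

theorem ne_of_cj {g : GL ι F} {a b : W} {c : F} (ha : a ≠ 0) (e : cj g (D a) = c • D b) : b ≠ 0 := by
  rintro rfl
  exact ha (h.eq_zero_of_scal ((isScal_cj_iff g _).1 ⟨c, by rw [e, h.zero]⟩))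

end Wy

local notation "ω" => (Om.om : F)
local notation "N9" => Wy.N (wy9 F)
local notation "g9" => Wy.g (wy9 F)
local notation "ac9" => Wy.ac (wy9 F)

/-- an overgroup in which the centraliser of a Weyl operator is small -/
structure Hy (M : Subgroup (GL W3 F)) : Prop where
  le : N9 ≤ M
  cx : ∀ g ∈ M, (g : Matrix W3 W3 F) * D9 F (0, 0, 1) = D9 F (0, 0, 1) * g → g ∈ N9

namespace Hy

variable {M : Subgroup (GL W3 F)} (H : Hy M) {g : GL W3 F}
include H

theorem ti (hg : g ∈ M) {a b : W9} (ha : a ≠ 0) {c : F} (e : cj g (D9 F a) = c • D9 F b) : g ∈ N9 := by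
  have h := wy9 F
  obtain ⟨k, rfl⟩ := h.exists_χ e
  obtain ⟨m, hm, e1⟩ := h.trans (a := (0, 0, 1)) (by decide) ha
  obtain ⟨n, hn, e2⟩ := h.trans' (a := (0, 0, 1)) (by decide) (h.ne_of_cj ha e) k
  have := H.cx _ (mul_mem (inv_mem (H.le hn)) (mul_mem hg (H.le hm))) (mul_eq_of_cj (by
    rw [cj_mul, cj_mul, e1, e, ← e2, cj_inv_cj]))
  rwa [mul_mem_cancel_left (inv_mem hn), mul_mem_cancel_right hm] at this

theorem sc (hg : g ∈ M) {a : W9} (ha : a ≠ 0) (e : g * g9 a * g⁻¹ ∈ N9) : g ∈ N9 := by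
  have h := wy9 F
  obtain ⟨y, hy⟩ : ∃ y, y = g * g9 a * g⁻¹ := ⟨_, rfl⟩
  rw [← hy] at e
  obtain ⟨u, u1, u2⟩ : ∃ u, ac9 y u = u ∧ cj y (D9 F u) ≠ D9 F u := by
    by_contra! k
    exact h.trace_ne_zero e k (by rw [hy, ← cj_val, trace_cj, h.g_val, h.trace_ne ha])
  obtain ⟨v, v1, v2⟩ := exists_fix (S := ac9 y) (by
    rw [← h.ac_pow e, hy, conj_pow, h.g_cube, mul_one, mul_inv_cancel, h.ac_one]) u
  obtain ⟨k, hk⟩ := h.ac_spec e u
  obtain ⟨l, hl⟩ := h.ac_spec e v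
  rw [u1] at hk
  rw [v1] at hl
  have k0 : k ≠ 0 := by rintro rfl; simp [hk] at u2
  have e1 := h.cj_add hl (h.cj_smul hk (-l * k)) rfl
  rw [mul_assoc, z3_sq k0, mul_one, add_neg_cancel, χ_zero, one_smul] at e1
  have s0 : v + (-l * k) • u ≠ 0 := fun e => v2 (l * k) (by simpa [add_neg_eq_zero] using e)
  generalize v + (-l * k) • u = s at e1 s0
  have e2 : cj (g⁻¹ * g9 s * g) (D9 F a) = χ F 0 • D9 F a := cj_eq_of (by
    have := congrArg (cj g⁻¹) (mul_eq_of_cj e1)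
    rw [map_mul, map_mul, hy, ← cj_val, cj_inv_cj] at this
    simpa [cj_apply] using this.symm)
  have z1 : g * h.hh a 0 * g⁻¹ ∈ N9 := H.ti (mul_mem (mul_mem hg (H.le (h.hh_mem a 0))) (inv_mem hg)) s0
    (c := 1) (b := s) (by
      have := h.cj_hh_val e2 0
      rw [one_smul, ← h.g_val, cj_val, show g * h.hh a 0 * g⁻¹ * g9 s * (g * h.hh a 0 * g⁻¹)⁻¹ =
        g9 s * g * ((g⁻¹ * g9 s * g)⁻¹ * h.hh a 0 * (g⁻¹ * g9 s * g)) * (h.hh a 0)⁻¹ * g⁻¹ by group]
      nth_rewrite 1 [← sub_zero (0 : Z3), ← this]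
      congr 1; group)
  have e3 : cj (g⁻¹ * g9 u * g) (D9 F a) = χ F (-k) • D9 F a := cj_eq_of (by
    have := congrArg (cj g⁻¹) (mul_eq_of_cj hk)
    rw [smul_mul_assoc, map_smul, map_mul, map_mul, hy, ← cj_val, cj_inv_cj] at this
    have := congrArg (χ F (-k) • ·) this
    simp only [smul_smul, χ_neg_mul, one_smul] at this
    simpa [cj_apply] using this.symm)
  have e4 := h.cj_hh_val e3 0
  have z2 := mul_mem (mul_mem (h.g_mem u) z1) (inv_mem (h.g_mem u))
  obtain ⟨c, b, e5⟩ := h.ker (mul_mem z1 (inv_mem z2)) (by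
    rw [h.ac_mul z1 (inv_mem z2), h.ac_inv z2, h.ac_conj (h.g_mem u) z1, h.ac_g]; simp)
  have e6 := congrArg (cj g) (h.hh_mul_inv a 0 k0)
  rw [cj_val, ← sub_neg_eq_add, ← e4, map_smul] at e6
  refine H.ti hg (smul_ne_zero k0 ha) (b := b) (c := (χ F (1 - k * 0))⁻¹ * c) ?_
  rw [← smul_smul, eq_inv_smul_iff₀ (χ_ne _), ← e6, ← e5]
  congr 1; group

theorem sc' (hg : g ∈ M) {a : W9} (ha : a ≠ 0) {w : GL W3 F} {c : F} (hw : (w : Matrix W3 W3 F) = c • D9 F a)
    (e : g * w * g⁻¹ ∈ N9) : g ∈ N9 :=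
  H.sc hg ha ((wy9 F).mem_of_smul (c := c⁻¹) (by
    rw [← cj_val, ← cj_val, hw, map_smul, inv_smul_smul₀ (ne_of_smul hw), Wy.g_val]) e)

end Hy

end Cfsg.Agent.H5.T3
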