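import Cfsg.Agent.H5.T3.StepB
import Cfsg.Agent.H5.T3.Grp

/-! The centraliser of an involution of type `(6, 3)`. -/

set_option autoImplicit false
set_option linter.unusedSimpArgs false
set_option linter.unusedSectionVars false
set_option linter.unusedVariables false

namespace Cfsg.Agent.H5.T3

open Matrix Cfsg.Agent.H9.Sp Cfsg.Agent.H7 Module
open scoped Kronecker

/-- a linear map given by two columns -/
def lin (p q v : W3) : W3 := (v.1 * p.1 + v.2 * q.1, v.1 * p.2 + v.2 * q.2)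

/-- its adjugate -/
def adj (p q : W3) : W3 → W3 := lin (q.2, -p.2) (-q.1, p.1)

set_option synthInstance.maxSize 1000 in
theorem sl23 : ∀ p q : W3, p.1 * q.2 - q.1 * p.2 = 1 → ∀ r s : W3, r.1 * s.2 - s.1 * r.2 = 1 →
    (fun v => lin p q (lin r s (adj p q (adj r s v))))^[4] (1, 0) = (1, 0) ∧
    (fun v => lin p q (lin r s (adj p q (adj r s v))))^[4] (0, 1) = (0, 1) := by
  decide +kernel

theorem lin_adj : ∀ p q : W3, p.1 * q.2 - q.1 * p.2 = 1 → ∀ v, lin p q (adj p q v) = v := by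
  decide +kernel

theorem w9_ext {S T : W9 ≃ₗ[Z3] W9} (h1 : ∀ b, S (b, 0) = T (b, 0)) (h2 : S (0, 1, 0) = T (0, 1, 0))
    (h3 : S (0, 0, 1) = T (0, 0, 1)) : S = T := LinearEquiv.ext fun ⟨b, u, v⟩ => by
  rw [show ((b, u, v) : W9) = (b, 0) + u • (0, 1, 0) + v • (0, 0, 1) by simp]
  simp only [map_add, map_smul, h1, h2, h3]

theorem form {S : W9 ≃ₗ[Z3] W9} (h : S ∈ Sp β9) (e : ∀ b, S (b, 0) = (b, 0)) :
    ∃ p q : W3, p.1 * q.2 - q.1 * p.2 = 1 ∧ (∀ v, S (0, v) = (0, lin p q v)) ∧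
      ∀ v, S⁻¹ (0, v) = (0, adj p q v) := by
  have e1 : ∀ v, (S (0, v)).1 = 0 := fun v => symp3.nd _ fun b => by
    have := h (b, 0) (0, v)
    rw [e] at this
    simpa [β9_apply] using this
  have e2 : ∀ v, S (0, v) = (0, lin (S (0, 1, 0)).2 (S (0, 0, 1)).2 v) := fun ⟨u, v⟩ => Prod.ext (e1 _) (by
    rw [show ((0, u, v) : W9) = u • (0, 1, 0) + v • (0, 0, 1) by simp, map_add, map_smul, map_smul]; rfl)
  have e3 : (S (0, 1, 0)).2.1 * (S (0, 0, 1)).2.2 - (S (0, 0, 1)).2.1 * (S (0, 1, 0)).2.2 = 1 := by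
    have := h (0, 0, 1) (0, 1, 0)
    rw [β9_apply, e1, e1] at this
    simpa [β9_apply, β3_apply, mul_comm] using this
  exact ⟨_, _, e3, e2, fun v => S.injective (by rw [e2 (adj _ _ v), lin_adj _ _ e3]; simp)⟩

theorem comm4 {S T : W9 ≃ₗ[Z3] W9} (hS : S ∈ Sp β9) (eS : ∀ b, S (b, 0) = (b, 0)) (hT : T ∈ Sp β9)
    (eT : ∀ b, T (b, 0) = (b, 0)) : (S * T * S⁻¹ * T⁻¹) ^ 4 = 1 := by
  obtain ⟨p, q, h1, h2, h3⟩ := form hS eS
  obtain ⟨r, s, k1, k2, k3⟩ := form hT eT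
  have i : ∀ S : W9 ≃ₗ[Z3] W9, (∀ b, S (b, 0) = (b, 0)) → ∀ b, S⁻¹ (b, 0) = (b, 0) := fun S e b =>
    S.injective (by simp [e])
  refine w9_ext (fun b => ?_) ?_ ?_ <;>
    simp only [pow_succ, pow_zero, one_mul, LinearEquiv.mul_apply, eS, eT, i S eS, i T eT, h2, h3, k2, k3,
      LinearEquiv.coe_one, id]
  · exact congrArg _ (sl23 p q h1 r s k1).1
  · exact congrArg _ (sl23 p q h1 r s k1).2

variable {F : Type*} [Field F] [Om F]

local notation "ω" => (Om.om : F)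
local notation "N3" => Wy.N (wy3 F)
local notation "N9" => Wy.N (wy9 F)
local notation "g9" => Wy.g (wy9 F)
local notation "ac9" => Wy.ac (wy9 F)

/-- the involution of type `(6, 3)` -/
abbrev sg (F : Type*) [Field F] : GL W3 F := kr 1 (π3 F)

local notation "σ" => ((sg F : GL W3 F) : Matrix W3 W3 F)

theorem sg_mem : sg F ∈ N9 := kr_mem (one_mem _) π_mem

theorem sg_val : σ = (1 : Matrix Z3 Z3 F) ⊗ₖ (π3 F : Matrix Z3 Z3 F) := rfl

theorem sg_sq : sg F * sg F = 1 := Units.ext (by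
  rw [Units.val_mul, sg_val, ← mul_kronecker_mul, ← Units.val_mul, π_sq]; simp)

theorem cj_sg (a : W9) : cj (sg F) (D9 F a) = D9 F (a.1, -a.2) := by rw [D9, cj_kr, cj_one, cj_π]; rfl

theorem eq_of_sg {c : F} (hc : c ≠ 0) {a : W9} (h : cj (sg F) (c • D9 F a) = c • D9 F a) : a = (a.1, 0) := by
  rw [map_smul, cj_sg] at h
  have : -a.2 = a.2 := congrArg Prod.snd ((wy9 F).inj hc h).1
  exact Prod.ext rfl ((by decide : ∀ b : W3, -b = b → b = 0) _ this)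

theorem D_sg (b : W3) : D9 F (b, 0) * σ = σ * D9 F (b, 0) := (mul_eq_of_cj (by rw [cj_sg, neg_zero])).symm

theorem cancel_sg {ε c d : F} (hc : c ≠ 0) {a b : W3}
    (h : c • D9 F (a, 0) * (σ + ε • 1) = d • D9 F (b, 0) * (σ + ε • 1)) : a = b ∧ c = d := by
  have e : ∀ a, D9 F (a, 0) * (σ + ε • 1) = D3 F a ⊗ₖ ((π3 F : Matrix Z3 Z3 F) + ε • 1) := fun a => by
    simp [D9, (wy3 F).zero, sg_val, mul_add, ← mul_kronecker_mul, kronecker_add, kronecker_smul]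
  rw [smul_mul_assoc, smul_mul_assoc, e, e] at h
  refine (wy3 F).inj hc (Matrix.ext fun i j => ?_)
  simpa (decide := true) [pm_apply] using congrFun (congrFun h (i, 1)) (j, 2)

/-- elements acting as a Weyl operator on an eigenspace of the involution -/
def Yd (ε : F) (b : W3) (k : GL W3 F) : Prop :=
  (k : Matrix W3 W3 F) * σ = σ * k ∧ ∃ c : F, (k : Matrix W3 W3 F) * (σ + ε • 1) = c • D9 F (b, 0) * (σ + ε • 1)

variable {ε : F} {a b : W3} {k l : GL W3 F}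

theorem comm_Pi {X : Matrix W3 W3 F} (h : X * σ = σ * X) : X * (σ + ε • 1) = (σ + ε • 1) * X := by
  simp [mul_add, add_mul, h]

theorem Yd.g (ε : F) (b : W3) : Yd ε b (g9 (b, 0)) := ⟨D_sg b, 1, by simp⟩

theorem Yd.mul (h : Yd ε a k) (h' : Yd ε b l) : Yd ε (a + b) (k * l) := by
  obtain ⟨h1, c, h2⟩ := h
  obtain ⟨h3, d, h4⟩ := h'
  refine ⟨by rw [Units.val_mul, mul_assoc, h3, ← mul_assoc, h1, mul_assoc], d * c * χ F (β9 (a, 0) (b, 0)), ?_⟩
  rw [Units.val_mul, mul_assoc, h4, smul_mul_assoc, comm_Pi (D_sg b), mul_smul_comm, ← mul_assoc, h2,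
    mul_assoc, ← comm_Pi (D_sg b), ← mul_assoc, smul_mul_assoc c, (wy9 F).mul]
  simp [smul_smul, mul_assoc]

theorem Yd.ne (h : (k : Matrix W3 W3 F) * (σ + ε • 1) = (0 : F) • D9 F (b, 0) * (σ + ε • 1)) : False := by
  rw [zero_smul, zero_mul, Units.mul_right_eq_zero] at h
  simpa using cancel_sg (ε := ε) (d := 0) (a := 0) (b := 0) one_ne_zero (by simp [h])

theorem Yd.inv (h : Yd ε a k) : Yd ε (-a) k⁻¹ := by
  obtain ⟨h1, c, h2⟩ := h
  have hc : c ≠ 0 := by rintro rfl; exact Yd.ne h2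
  refine ⟨comm_inv h1, c⁻¹, ?_⟩
  rw [Units.inv_mul_eq_iff_eq_mul, smul_mul_assoc, comm_Pi (D_sg _), mul_smul_comm, ← mul_assoc, h2,
    smul_mul_assoc, smul_mul_assoc, inv_smul_smul₀ hc, comm_Pi (D_sg _), mul_assoc,
    show ((-a, 0) : W9) = -(a, 0) by simp, (wy9 F).mul_neg, mul_one]

theorem Yd.one : Yd ε 0 (1 : GL W3 F) := ⟨by simp, 1, by simp [show ((0, 0) : W9) = 0 from rfl, (wy9 F).zero]⟩

theorem Yd.pow (h : Yd ε 0 k) (n : ℕ) : Yd ε 0 (k ^ n) := by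
  induction n with
  | zero => simpa using Yd.one
  | succ n ih => simpa [pow_succ] using ih.mul h

theorem Yd.eq (h : Yd ε a k) {c : F} {w : W9} (e : (k : Matrix W3 W3 F) = c • D9 F w) : w = (a, 0) := by
  obtain ⟨h1, d, h2⟩ := h
  have hc := ne_of_smul e
  have := eq_of_sg hc (e ▸ cj_eq_of h1.symm)
  rw [e, this] at h2
  rw [this, (cancel_sg hc h2).1]

theorem Yd.cj (h : Yd ε a k) (hk : k ∈ N9) (b : W3) :
    cj k (D9 F (b, 0)) = χ F (β3 b a) • D9 F (b, 0) := by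
  obtain ⟨i, e⟩ := (wy9 F).ac_spec hk (b, 0)
  have := ((h.mul (Yd.g ε b)).mul h.inv).eq ((cj_val _ _).symm.trans e)
  rw [add_neg_cancel_comm] at this
  rw [this] at e
  obtain ⟨h1, c, h2⟩ := h
  have hc : c ≠ 0 := by rintro rfl; exact Yd.ne h2
  have e1 := congrArg (· * (σ + ε • 1)) (mul_eq_of_cj e)
  simp only [mul_assoc] at e1
  rw [comm_Pi (D_sg _), ← mul_assoc, h2, mul_assoc, ← comm_Pi (D_sg _), ← mul_assoc, ← mul_assoc,
    smul_mul_smul_comm, smul_mul_assoc c, (wy9 F).mul, (wy9 F).mul, smul_smul, smul_smul,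
    Prod.mk_add_mk, Prod.mk_add_mk, add_zero] at e1
  have e2 := (cancel_sg (by simp [hc, χ_ne]) e1).2
  rw [mul_comm _ c, mul_assoc, mul_right_inj' hc, ← χ_add] at e2
  have e3 := χ_inj e2
  simp only [β9_apply, map_zero, add_zero, symp3.skew a] at e3
  rw [e, show i = β3 b a by linear_combination -e3 - add_self_eq (W := Z3) (β3 b a)]

theorem g_pow (w : W9) (n : ℕ) : g9 w ^ n = g9 ((n : Z3) • w) := by
  induction n with
  | zero => exact Units.ext (by simp [(wy9 F).zero])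
  | succ n ih => exact Units.ext (by simp [pow_succ, ih, (wy9 F).mul, symp9.alt, add_smul])

theorem ee_kr (a : W3) (j : Z3) : ee (D9 F) (0, a) j = (1 : Matrix Z3 Z3 F) ⊗ₖ ee (D3 F) a j := by
  simp [ee, D9, kronecker_smul, kronecker_add, (wy3 F).zero]

theorem Yd.hh {a : W3} (h : ee (D3 F) a 0 * π3 F = ee (D3 F) a 0) : Yd (-1) 0 ((wy9 F).hh (0, a) 0) := by
  have e : ee (D9 F) (0, a) 0 * σ = ee (D9 F) (0, a) 0 := by
    rw [ee_kr, sg_val, ← mul_kronecker_mul, h, one_mul]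
  have e' := (wy9 F).cj_ee (k := 0) ((cj_sg (0, a)).trans (by rw [χ_zero, one_smul])) 0
  rw [show ((((0, a) : W9).1, -((0, a) : W9).2) : W9) = -(0, a) by simp, ee_neg, sub_zero, neg_zero] at e'
  exact ⟨by simp [mul_add, add_mul, mul_eq_of_cj e'], 1, by
    simp [add_mul, mul_add, e, show ((0, 0) : W9) = 0 from rfl, (wy9 F).zero]⟩

theorem comm_of_hh {X : Matrix W3 W3 F} {a : W9} {j : Z3} (h : X * (wy9 F).hh a j = (wy9 F).hh a j * X) :
    X * ee (D9 F) a j = ee (D9 F) a j * X := by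
  simpa [mul_add, add_mul, smul_right_inj om_sub] using h

theorem blk_mem {n : GL W3 F} (hn : n ∈ N9) (h : (n : Matrix W3 W3 F) * e0 F = e0 F * n) : blkG n h ∈ N3 :=
  (wy3 F).mem_N fun b => by
    obtain ⟨w, k, e⟩ := hn (b, 0)
    have e1 : ∀ w : W9, blk (D9 F w) = D3 F w.2 0 0 • D3 F w.1 := fun w => by
      ext i j; simp [blk_apply, D9, mul_comm]
    have e2 : D9 F (b, 0) * e0 F = e0 F * D9 F (b, 0) := by
      rw [← ee_e0, ee_kr, D9, (wy3 F).zero, ← mul_kronecker_mul, ← mul_kronecker_mul]; simp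
    have := congrArg blk e
    rw [cj_apply, mul_assoc, blk_mul h, blk_mul e2, e1, (wy3 F).zero, one_apply_eq, one_smul, ← mul_assoc] at this
    exact ⟨w.1, χ F k * D3 F w.2 0 0, this.trans (by rw [← smul_smul, ← e1]; simp [blk])⟩

theorem fix_sg {X : Matrix W3 W3 F} (h0 : X * e0 F = e0 F)
    (h1 : X * ee (D9 F) (0, 1, 0) 0 = ee (D9 F) (0, 1, 0) 0 * X) : X * (σ + (1 : F) • 1) = σ + (1 : F) • 1 := by
  have t := h3 (F := F)
  rw [← ee_e0] at h0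
  have e1 : ee (D9 F) (0, 1, 0) 0 = (3 : F) • (ee (D9 F) (0, 1, 0) 0 * ee (D9 F) (0, 0, 1) 0 *
      ee (D9 F) (0, 1, 0) 0) := by
    simp only [ee_kr, ← mul_kronecker_mul, ← kronecker_smul, one_mul, ee_x, ee_z]
    congr 1
    ext i j; simp (decide := true) [mul_apply, sum3, single_apply, t]
  have e2 : σ + (1 : F) • 1 = (3 : F) • (ee (D9 F) (0, 0, 1) 0 + ee (D9 F) (0, 1, 0) 0 +
      (-1 : F) • (ee (D9 F) (0, 0, 1) 0 * ee (D9 F) (0, 1, 0) 0) +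
      (-1 : F) • (ee (D9 F) (0, 1, 0) 0 * ee (D9 F) (0, 0, 1) 0)) := by
    rw [← one_kronecker_one]
    simp only [ee_kr, ← mul_kronecker_mul, ← kronecker_smul, one_mul, ee_x, ee_z, sg_val, ← kronecker_add]
    congr 1
    refine Matrix.ext (z3_ind ?_ ?_ ?_) <;> refine z3_ind ?_ ?_ ?_ <;>
      simp (decide := true) [mul_apply, sum3, single_apply, t, pm_apply, one_apply] <;> field_simp <;> ring
  generalize ee (D9 F) (0, 1, 0) 0 = Q at *
  generalize ee (D9 F) (0, 0, 1) 0 = P at *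
  have e3 : X * Q = Q := by rw [e1, mul_smul_comm, ← mul_assoc, ← mul_assoc, h1, mul_assoc Q, h0]
  simp only [e2, mul_smul_comm, mul_add, ← mul_assoc, h0, e3]

variable [Finite F] {M : Subgroup (GL W3 F)} (H : Hy M)
include H

theorem Hy.yd (hk : k ∈ M) (h : Yd ε a k) : k ∈ N9 := by
  have w := wy9 F
  let Y : Subgroup (GL W3 F) :=
    { carrier := {k | k ∈ M ∧ ∃ a, Yd ε a k}
      mul_mem' := fun ⟨h1, _, h2⟩ ⟨h3, _, h4⟩ => ⟨mul_mem h1 h3, _, h2.mul h4⟩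
      one_mem' := ⟨one_mem _, _, Yd.one⟩
      inv_mem' := fun ⟨h1, _, h2⟩ => ⟨inv_mem h1, _, h2.inv⟩ }
  refine bc' (Y := Y) (Z := Geo.scalars W3 F) (x := g9 ((1, 0), 0)) (y := g9 ((0, 1), 0))
    (fun z hz g => (scalars_comm hz g).symm) (fun z hz => w.mem_of_scal (isScal_of_mem_scalars hz))
    ((mem_scalars_iff_isScal _).2 ⟨_, by
      rw [Units.val_mul, ← cj_val, w.g_val, w.cj_g, w.g_inv, w.g_val, smul_mul_assoc, w.mul_neg]⟩)
    (w.g_cube _) (w.g_cube _) (w.g_mem _) (w.g_mem _) ⟨H.le (w.g_mem _), _, Yd.g _ _⟩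
    ⟨H.le (w.g_mem _), _, Yd.g _ _⟩ (fun i j hij c hc e => inv_mem_iff.1 (H.sc' (inv_mem hc.1) (w := g9 ((1, 0), 0) ^ i * g9 ((0, 1), 0) ^ j)
      (a := (i : Z3) • ((1, 0), 0) + (j : Z3) • ((0, 1), 0)) (c := χ F _) ?_ (by rw [g_pow, g_pow, Units.val_mul, w.g_val, w.g_val, w.mul]) (by rwa [inv_inv]))) ?_ ⟨hk, _, h⟩
  · simpa [ZMod.natCast_eq_zero_iff] using hij
  rintro s ⟨-, a, s1⟩ s2 t ⟨-, b, t1⟩ t2
  have e1 := ((s1.mul t1).mul s1.inv).mul t1.inv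
  rw [add_neg_cancel_comm, add_neg_cancel] at e1
  have m := mul_mem (mul_mem (mul_mem s2 t2) (inv_mem s2)) (inv_mem t2)
  obtain ⟨c, u, e2⟩ := w.ker (pow_mem m 4) (by
    rw [w.ac_pow m, w.ac_mul (mul_mem (mul_mem s2 t2) (inv_mem s2)) (inv_mem t2), w.ac_conj s2 t2, w.ac_inv t2]
    exact comm4 (w.ac_Sp s2) (fun b => w.ac_eq s2 (s1.cj s2 b)) (w.ac_Sp t2) fun b => w.ac_eq t2 (t1.cj t2 b))
  exact (mem_scalars_iff_isScal _).2 ⟨c, by rw [e2, (e1.pow 4).eq e2]; exact congrArg _ w.zero⟩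

theorem Hy.cent_Y {l : GL W3 F} (hl : l ∈ M) (h : ∀ k ∈ N9, Yd (-1) 0 k → k * l = l * k) : l ∈ N9 := by
  have w := wy9 F
  have e : ∀ a, ee (D3 F) a 0 * π3 F = ee (D3 F) a 0 →
      (l : Matrix W3 W3 F) * ee (D9 F) (0, a) 0 = ee (D9 F) (0, a) 0 * l := fun a ha =>
    comm_of_hh (congrArg Units.val (h _ (w.hh_mem _ _) (Yd.hh ha)).symm)
  have e0' := e (0, 1) (by rw [ee_z]; ext i j; simp [mul_apply, single_apply, pm_apply, ite_and, neg_eq_iff_eq_neg, eq_comm (a := j)])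
  have e1 := e (1, 0) (by rw [ee_x]; ext i j; simp [mul_apply, pm_apply, neg_eq_iff_eq_neg])
  rw [ee_e0] at e0'
  have e2 := congrArg Units.val (h _ sg_mem ⟨rfl, -1, by
    simp [mul_add, ← Units.val_mul, sg_sq, show ((0, 0) : W9) = 0 from rfl, w.zero, add_comm]⟩)
  let L : Subgroup (GL W3 F) :=
    { carrier := {k | k ∈ M ∧ (k : Matrix W3 W3 F) * e0 F = e0 F ∧ e0 F * k = e0 F}
      mul_mem' := fun ⟨h1, h2, h3⟩ ⟨k1, k2, k3⟩ => ⟨mul_mem h1 k1, by rw [Units.val_mul, mul_assoc, k2, h2],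
        by rw [Units.val_mul, ← mul_assoc, h3, k3]⟩
      one_mem' := ⟨one_mem _, by simp, by simp⟩
      inv_mem' := fun ⟨h1, h2, h3⟩ => ⟨inv_mem h1, by rw [Units.inv_mul_eq_iff_eq_mul, h2],
        by rw [Units.mul_inv_eq_iff_eq_mul, h3]⟩ }
  obtain ⟨m, ⟨-, m1, m2⟩, hn⟩ := sc_adjust (p := 3) (L := L) (fun g hg => H.sc hg (a := (0, 0, 1)) (by decide))
    (fun _ h => h.1) ⟨H.le (w.g_mem _), by simp [← ee_e0, w.D_ee], by simp [← ee_e0, w.ee_D']⟩ (w.g_mem _)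
    (w.g_cube _) hl fun k ⟨k1, k2, k3⟩ => ⟨mul_mem (mul_mem hl k1) (inv_mem hl), by
      rw [← cj_val, ← cj_eq_of e0', ← map_mul, k2], by rw [← cj_val, ← cj_eq_of e0', ← map_mul, k3]⟩
  have e3 : ((m * l : GL W3 F) : Matrix W3 W3 F) * e0 F = e0 F * (m * l : GL W3 F) := by
    rw [Units.val_mul, mul_assoc, e0', ← mul_assoc, ← mul_assoc, m1, m2]
  have e4 := blk_mem hn e3
  have e5 : blkG _ e3 = blkG l e0' := Units.ext (by
    change blk (m.1 * l.1) = blk l.1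
    rw [blk_mul (m1.trans m2.symm), show blk (m : Matrix W3 W3 F) = 1 by
      rw [blk, Matrix.mul_assoc, ← Matrix.mul_one (U0 F), ← U0_U0, ← Matrix.mul_assoc (U0 F), ← e0,
        ← Matrix.mul_assoc (m : Matrix W3 W3 F), m1, e0, Matrix.mul_assoc, U0_U0, Matrix.mul_one, U0_U0], one_mul])
  rw [e5] at e4
  have n := kr_mem (inv_mem e4) (one_mem N3)
  have c : ∀ X : Matrix Z3 Z3 F, l.1 * 1 ⊗ₖ X = 1 ⊗ₖ X * l.1 →
      (l * kr (blkG l e0')⁻¹ 1).1 * 1 ⊗ₖ X = 1 ⊗ₖ X * (l * kr (blkG l e0')⁻¹ 1).1 := fun X hX => by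
    rw [Units.val_mul, ← mul_assoc, ← hX, mul_assoc, mul_assoc, kr_val, ← mul_kronecker_mul,
      ← mul_kronecker_mul]
    simp
  refine (mul_mem_cancel_right n).1 (H.yd (ε := 1) (a := 0) (mul_mem hl (H.le n)) ⟨c _ e2.symm, 1, ?_⟩)
  rw [show D9 F (0, 0) = 1 from w.zero, one_smul F (1 : Matrix W3 W3 F), one_mul, ← one_smul F (1 : Matrix W3 W3 F)]
  refine fix_sg ?_ (by rw [ee_kr] at e1 ⊢; exact c _ e1)
  have e6 : (kr (blkG l e0')⁻¹ 1 : Matrix W3 W3 F) * U0 F = U0 F * (blkG l e0')⁻¹.1 := by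
    ext ⟨i, P⟩ j
    simp [kr_val, mul_apply, U0, Fintype.sum_prod_type, one_apply, ite_and]
  rw [e0, Units.val_mul, ← Matrix.mul_assoc, Matrix.mul_assoc (l : Matrix W3 W3 F), e6, ← Matrix.mul_assoc,
    mul_U0 e0', Matrix.mul_assoc (U0 F), show blk (l : Matrix W3 W3 F) * _ = 1 from (blkG l e0').mul_inv,
    Matrix.mul_one]

/-- Step C -/
theorem Hy.cent_sg {u : GL W3 F} (hu : u ∈ M) (h : (u : Matrix W3 W3 F) * σ = σ * u) : u ∈ N9 := by
  have w := wy9 F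
  obtain ⟨l, ⟨l1, l2⟩, hl⟩ := sc_adjust (p := 3) (L := M ⊓ Subgroup.centralizer {k | k ∈ M ∧ Yd (-1) 0 k})
    (fun g hg => H.sc hg (a := ((0, 1), 0)) (by decide)) inf_le_left ⟨H.le (w.g_mem _), fun k hk =>
      Units.ext (mul_eq_of_cj (by simpa using hk.2.cj (H.yd hk.1 hk.2) (0, 1)))⟩ (w.g_mem _) (w.g_cube _) hu
    fun l ⟨l1, l2⟩ => ⟨M.mul_mem (M.mul_mem hu l1) (M.inv_mem hu), fun k ⟨k1, k2, c, k3⟩ => by
      have := l2 (u⁻¹ * k * u) ⟨mul_mem (mul_mem (inv_mem hu) k1) hu, by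
        simp only [Units.val_mul, mul_assoc, h]
        rw [← mul_assoc k.1, k2, ← mul_assoc, ← mul_assoc, comm_inv h, mul_assoc, mul_assoc], c, by
        rw [show D9 F (0, 0) = 1 from w.zero] at k3 ⊢
        rw [Units.val_mul, Units.val_mul, mul_assoc, comm_Pi h, mul_assoc, ← mul_assoc k.1, k3]
        rw [smul_mul_assoc, one_mul, smul_mul_assoc, ← comm_Pi h, mul_smul_comm, Units.inv_mul_cancel_left]⟩
      rw [← mul_right_inj u⁻¹, ← mul_left_inj u]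
      simpa [mul_assoc] using this⟩
  exact (mul_mem_cancel_left (H.cent_Y l1 fun k hk hk' => l2 k ⟨H.le hk, hk'⟩)).1 hl

end Cfsg.Agent.H5.T3
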