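import Cfsg.Agent.H9.Sp.Basic
import Cfsg.Agent.H7.AschBasic

/-! Weyl systems: absolutely irreducible representations of extraspecial groups of exponent `3`. -/

set_option autoImplicit false
set_option linter.unusedSimpArgs false
set_option linter.unusedSectionVars false
set_option linter.unusedVariables false

namespace Cfsg.Agent.H5.T3

open Matrix Cfsg.Agent.H9.Sp Cfsg.Agent.H7

abbrev Z3 := ZMod 3

instance fact3 : Fact (Nat.Prime 3) := ⟨Nat.prime_three⟩

/-- a chosen primitive cube root of unity -/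
class Om (F : Type*) [Field F] where
  om : F
  eq : om ^ 2 + om + 1 = 0
  three : (3 : F) ≠ 0

theorem z3 (k : Z3) : k = 0 ∨ k = 1 ∨ k = 2 := by revert k; decide

theorem sum3 {A : Type*} [AddCommMonoid A] (f : Z3 → A) : ∑ j, f j = f 0 + f 1 + f 2 :=
  Fin.sum_univ_three f

theorem z3_sq {t : Z3} (h : t ≠ 0) : t * t = 1 := by revert t; decide

variable {F : Type*} [Field F] [Om F]

local notation "ω" => (Om.om : F)

theorem om_eq : ω ^ 2 + ω + 1 = 0 := Om.eq

theorem h3 : (3 : F) ≠ 0 := Om.three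

theorem om_cube : ω ^ 3 = 1 := by linear_combination (ω - 1) * om_eq (F := F)

theorem om_ne : ω ≠ 0 := fun e => one_ne_zero (by rw [← om_cube (F := F), e]; ring : (1 : F) = 0)

theorem om_ne_one : ω ≠ 1 := fun e => h3 (by have := om_eq (F := F); rw [e] at this; linear_combination this)

theorem om_sq_ne_one : ω ^ 2 ≠ 1 := fun e => om_ne_one (by linear_combination om_cube (F := F) - ω * e)

theorem om_sub : ω - 1 ≠ 0 := sub_ne_zero.2 om_ne_one

/-- the additive character -/
def χ (F : Type*) [Field F] [Om F] (k : Z3) : F := (Om.om : F) ^ k.val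

@[simp] theorem χ_zero : χ F 0 = 1 := pow_zero _

theorem χ_one : χ F 1 = ω := pow_one _

theorem χ_two : χ F 2 = ω ^ 2 := rfl

theorem χ_neg_one : χ F (-1) = ω ^ 2 := rfl

theorem χ_neg_two : χ F (-2) = ω := pow_one _

theorem χ_add (a b : Z3) : χ F (a + b) = χ F a * χ F b := by
  rw [χ, ZMod.val_add, χ, χ, ← pow_add]
  conv_rhs => rw [← Nat.mod_add_div (a.val + b.val) 3, pow_add, pow_mul, om_cube, one_pow, mul_one]

theorem χ_ne (k : Z3) : χ F k ≠ 0 := pow_ne_zero _ om_ne

theorem χ_mul_neg (k : Z3) : χ F k * χ F (-k) = 1 := by rw [← χ_add, add_neg_cancel, χ_zero]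

theorem χ_neg_mul (k : Z3) : χ F (-k) * χ F k = 1 := by rw [mul_comm, χ_mul_neg]

theorem χ_cube (k : Z3) : χ F k ^ 3 = 1 := by rw [χ, ← pow_mul, mul_comm, pow_mul, om_cube, one_pow]

theorem χ_eq_one {k : Z3} (h : χ F k = 1) : k = 0 := by
  rcases z3 k with rfl | rfl | rfl
  · rfl
  · exact absurd (χ_one.symm.trans h) om_ne_one
  · exact absurd h om_sq_ne_one

theorem χ_inj {a b : Z3} (h : χ F a = χ F b) : a = b :=
  sub_eq_zero.1 (χ_eq_one (F := F) (by rw [sub_eq_add_neg, χ_add, h, χ_mul_neg]))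

theorem χ_sum {k : Z3} (h : k ≠ 0) : 1 + χ F k + χ F (-k) = 0 := by
  rcases z3 k with rfl | rfl | rfl
  · exact absurd rfl h
  · rw [χ_one, χ_neg_one]; linear_combination om_eq (F := F)
  · rw [χ_two, χ_neg_two]; linear_combination om_eq (F := F)

theorem exists_χ {c : F} (h : c ^ 3 = 1) : ∃ k, c = χ F k := by
  have : (c - 1) * (c - ω) * (c - ω ^ 2) = 0 := by
    linear_combination h + (-c ^ 2 + c + (ω - 1) * (c - 1)) * om_eq (F := F)
  rcases mul_eq_zero.1 this with e | e
  · rcases mul_eq_zero.1 e with e | e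
    · exact ⟨0, by rw [χ_zero, sub_eq_zero.1 e]⟩
    · exact ⟨1, by rw [χ_one, sub_eq_zero.1 e]⟩
  · exact ⟨2, by rw [χ_two, sub_eq_zero.1 e]⟩

variable {W : Type} [AddCommGroup W] [Module Z3 W] [Fintype W] [DecidableEq W]

theorem sum_χ {ψ : W →ₗ[Z3] Z3} {a : W} (h : ψ a ≠ 0) : ∑ b, χ F (ψ b) = 0 := by
  have e : ∑ b, χ F (ψ b) = χ F (ψ a) * ∑ b, χ F (ψ b) := by
    rw [Finset.mul_sum, ← Equiv.sum_comp (Equiv.addLeft a)]
    simp [χ_add]
  by_contra h0
  exact h (χ_eq_one (F := F) (mul_right_cancel₀ h0 (by rw [← e, one_mul])))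

theorem add_self_eq (a : W) : a + a = -a := by
  have : (3 : Z3) • a = 0 := by rw [show (3 : Z3) = 0 from rfl, zero_smul]
  linear_combination (norm := module) this

theorem two_smul' (a : W) : (2 : Z3) • a = -a := by rw [two_smul, add_self_eq]

variable {ι : Type} [Fintype ι] [DecidableEq ι]

theorem trace_cj (g : GL ι F) (X : Matrix ι ι F) : (cj g X).trace = X.trace := by
  rw [cj_apply, trace_mul_cycle, Units.inv_mul, one_mul]

theorem cj_eq_of {g : GL ι F} {X Y : Matrix ι ι F} (h : (g : Matrix ι ι F) * X = Y * g) :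
    cj g X = Y := by rw [cj_apply, h, mul_assoc, Units.mul_inv, mul_one]

theorem mul_eq_of_cj {g : GL ι F} {X Y : Matrix ι ι F} (h : cj g X = Y) :
    (g : Matrix ι ι F) * X = Y * g := by rw [← h, cj_mul_val]

/-- a Weyl system -/
structure Wy (β : W →ₗ[Z3] W →ₗ[Z3] Z3) (D : W → Matrix ι ι F) : Prop where
  symp : Symp β
  zero : D 0 = 1
  mul : ∀ a b, D a * D b = χ F (β a b) • D (a + b)
  card : Fintype.card W = Fintype.card ι ^ 2
  ne : (Fintype.card ι : F) ≠ 0

namespace Wy

variable {β : W →ₗ[Z3] W →ₗ[Z3] Z3} {D : W → Matrix ι ι F} (h : Wy β D)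
include h

theorem nonempty : Nonempty ι := by
  by_contra e
  rw [not_nonempty_iff] at e
  exact h.ne (by simp)

theorem mul_neg (a : W) : D a * D (-a) = 1 := by simp [h.mul, h.symp.alt, h.zero]

theorem neg_mul (a : W) : D (-a) * D a = 1 := by simp [h.mul, h.symp.alt, h.zero]

theorem mul_self (a : W) : D a * D a = D (-a) := by simp [h.mul, h.symp.alt, add_self_eq]

theorem neg_mul_neg (a : W) : D (-a) * D (-a) = D a := by rw [h.mul_self, neg_neg]

theorem cube (a : W) : D a ^ 3 = 1 := by rw [pow_succ, sq, h.mul_self, h.neg_mul]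

/-- the Weyl operator as an invertible matrix -/
def g (a : W) : GL ι F := ⟨D a, D (-a), h.mul_neg a, h.neg_mul a⟩

@[simp] theorem g_val (a : W) : (h.g a : Matrix ι ι F) = D a := rfl

theorem g_inv (a : W) : (h.g a)⁻¹ = h.g (-a) := Units.ext rfl

theorem g_cube (a : W) : h.g a ^ 3 = 1 := Units.ext (by simp [h.cube])

theorem cj_g (a b : W) : cj (h.g a) (D b) = χ F (β b a) • D b := cj_eq_of (by
  rw [g_val, h.mul, smul_mul_assoc, h.mul, smul_smul, ← χ_add, add_self_eq (W := Z3), ← h.symp.skew,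
    add_comm])

theorem trace_ne {a : W} (ha : a ≠ 0) : (D a).trace = 0 := by
  obtain ⟨b, hb⟩ := h.symp.exists_ne ha
  have := trace_cj (h.g b) (D a)
  rw [h.cj_g, trace_smul, smul_eq_mul] at this
  by_contra e
  exact hb (χ_eq_one (F := F) (mul_right_cancel₀ e (by rw [this, one_mul])))

theorem trace_D (a : W) : (D a).trace = if a = 0 then (Fintype.card ι : F) else 0 := by
  split_ifs with e
  · rw [e, h.zero, trace_one]
  · exact h.trace_ne e

theorem trace_mul (a b : W) : (D a * D (-b)).trace = if a = b then (Fintype.card ι : F) else 0 := by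
  rw [h.mul, trace_smul, h.trace_D, ← sub_eq_add_neg]
  split_ifs with e1 e2 e2
  · simp [e2, h.symp.alt]
  · exact absurd (sub_eq_zero.1 e1) e2
  · exact absurd (sub_eq_zero.2 e2) e1
  · simp

theorem coef (c : W → F) (b : W) :
    ((∑ a, c a • D a) * D (-b)).trace = c b * Fintype.card ι := by
  simp [Finset.sum_mul, trace_sum, h.trace_mul]

theorem li : LinearIndependent F D := Fintype.linearIndependent_iff.2 fun c hc b => by
  have := h.coef c b
  rw [hc, zero_mul, trace_zero] at this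
  exact (mul_eq_zero.1 this.symm).resolve_right h.ne

theorem span (X : Matrix ι ι F) : ∃ c : W → F, X = ∑ a, c a • D a := by
  let b := basisOfLinearIndependentOfCardEqFinrank h.li (by simp [h.card, Module.finrank_matrix, sq])
  refine ⟨b.repr X, ?_⟩
  conv_lhs => rw [← b.sum_repr X]
  simp [b]

theorem expand (X : Matrix ι ι F) :
    X = ∑ a, ((Fintype.card ι : F)⁻¹ * (X * D (-a)).trace) • D a := by
  obtain ⟨c, rfl⟩ := h.span X
  refine Finset.sum_congr rfl fun a _ => ?_
  rw [h.coef, mul_comm (c a), inv_mul_cancel_left₀ h.ne]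

theorem avg (X : Matrix ι ι F) :
    ∑ a, cj (h.g a) X = ((Fintype.card ι : F) * X.trace) • (1 : Matrix ι ι F) := by
  obtain ⟨c, rfl⟩ := h.span X
  have : ∀ b, ∑ a, cj (h.g a) (D b) = ((Fintype.card ι : F) * (D b).trace) • (1 : Matrix ι ι F) := by
    intro b
    simp only [h.cj_g, ← Finset.sum_smul]
    by_cases e : b = 0
    · simp [e, h.zero, h.card, sq]
    · obtain ⟨a, ha⟩ := h.symp.exists_ne e
      rw [sum_χ ha, h.trace_ne e]; simp
  simp only [map_sum, map_smul]
  rw [Finset.sum_comm]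
  simp only [← Finset.smul_sum, this, trace_sum, trace_smul, smul_smul, Finset.mul_sum,
    Finset.sum_smul, smul_eq_mul, mul_left_comm]

theorem cent {X : Matrix ι ι F} (hX : ∀ a, D a * X = X * D a) : IsScal X := by
  have := h.avg X
  rw [Finset.sum_congr rfl fun a _ => cj_eq_of (g := h.g a) (hX a), Finset.sum_const, Finset.card_univ,
    h.card, ← Nat.cast_smul_eq_nsmul F] at this
  refine ⟨((Fintype.card ι ^ 2 : ℕ) : F)⁻¹ * ((Fintype.card ι : F) * X.trace), ?_⟩
  rw [← smul_smul, ← this, inv_smul_smul₀ (by simpa using h.ne)]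

theorem inj {a b : W} {c d : F} (hc : c ≠ 0) (e : c • D a = d • D b) : a = b ∧ c = d := by
  have := congrArg (fun X => (X * D (-a)).trace) e
  simp only [smul_mul_assoc, trace_smul, h.trace_mul, if_true, smul_eq_mul] at this
  split_ifs at this with e1
  · exact ⟨e1.symm, mul_right_cancel₀ h.ne this⟩
  · exact absurd this (by simpa [hc] using h.ne)

theorem eq_zero_of_scal {a : W} (e : IsScal (D a)) : a = 0 := by
  obtain ⟨c, e⟩ := e
  exact (h.inj one_ne_zero (by rw [one_smul, e, h.zero])).1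

theorem eq_zero_of_mulVec {κ : Type} [Fintype κ] {T : Matrix κ ι F} {v : ι → F} (hv : v ≠ 0)
    (e : ∀ a, T *ᵥ (D a *ᵥ v) = 0) : T = 0 := by
  obtain ⟨i, hi⟩ := Function.ne_iff.1 hv
  refine mat_eq_zero_of_mulVec fun w => ?_
  obtain ⟨c, hc⟩ := h.span (vecMulVec w (Pi.single i (v i)⁻¹))
  have : w = (∑ a, c a • D a) *ᵥ v := by
    rw [← hc, vecMulVec_mulVec]; simp [inv_mul_cancel₀ hi]
  rw [this]
  simp [sum_mulVec, mulVec_sum, smul_mulVec, mulVec_smul, e]

theorem exists_ne {φ v : ι → F} (hφ : φ ≠ 0) (hv : v ≠ 0) : ∃ a, φ ⬝ᵥ (D a *ᵥ v) ≠ 0 := by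
  by_contra! e
  have := h.eq_zero_of_mulVec (T := replicateRow Unit φ) hv fun a => by ext; simp [mulVec, e]
  exact hφ (funext fun i => congrFun (congrFun this ()) i)

theorem uniq {κ : Type} [Fintype κ] [DecidableEq κ] {D' : W → Matrix κ κ F} (h' : Wy β D') :
    ∃ T : Matrix ι κ F, Function.Injective T.mulVec ∧ ∀ a, D a * T = T * D' a := by
  have key : ∀ (Y : Matrix ι κ F) b, D b * (∑ a, D a * Y * D' (-a)) = (∑ a, D a * Y * D' (-a)) * D' b := by
    intro Y b
    rw [Matrix.mul_sum, Matrix.sum_mul, ← Equiv.sum_comp (Equiv.addLeft b) (fun a => D a * Y * D' (-a) * D' b)]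
    refine Finset.sum_congr rfl fun a _ => ?_
    rw [← Matrix.mul_assoc, ← Matrix.mul_assoc, h.mul, Matrix.mul_assoc _ _ (D' b), h'.mul]
    simp [h.symp.alt, h.symp.skew a b, add_comm]
  obtain ⟨Y, hY⟩ : ∃ Y : Matrix ι κ F, ∑ a, D a * Y * D' (-a) ≠ 0 := by
    by_contra! e
    obtain ⟨j⟩ := h'.nonempty
    have := Fintype.linearIndependent_iff.1 h.li (fun a => D' (-a) j j) (by
      ext k i
      simpa [Matrix.sum_apply, Matrix.mul_apply, single_apply, ite_and, mul_comm] using
        congrFun (congrFun (e (single i j 1)) k) j) 0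
    simp [h'.zero] at this
  refine ⟨_, ?_, key Y⟩
  refine (injective_iff_map_eq_zero (mulVecLin _)).2 fun v hv => ?_
  by_contra e
  refine hY (h'.eq_zero_of_mulVec e fun a => ?_)
  rw [mulVec_mulVec, ← key, ← mulVec_mulVec, show _ *ᵥ v = 0 from hv, mulVec_zero]

theorem uniq' {D' : W → Matrix ι ι F} (h' : Wy β D') : ∃ g : GL ι F, ∀ a, cj g (D' a) = D a := by
  obtain ⟨T, h1, h2⟩ := h.uniq h'
  obtain ⟨g, rfl⟩ := mulVec_injective_iff_isUnit.1 h1
  exact ⟨g, fun a => cj_eq_of (h2 a).symm⟩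

theorem comp {s : W ≃ₗ[Z3] W} (hs : s ∈ Sp β) : Wy β fun a => D (s a) :=
  ⟨h.symp, by simp [h.zero], fun a b => by rw [h.mul, hs, map_add], h.card, h.ne⟩

end Wy

end Cfsg.Agent.H5.T3
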